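import Mathlib

/-!
# Coordinates on an elementary abelian 2-group with a marked involution (helper822)
-/

set_option autoImplicit false

namespace Cfsg.Agent.H822.Coord

abbrev F := ZMod 2

theorem F_add_self (t : F) : t + t = 0 := by revert t; decide

theorem F_eq_one {t : F} (h : t ≠ 0) : t = 1 := by revert t; decide

/-- coordinates with `z` the first basis vector -/
theorem exists_coord {U : Type*} [Group U] [Finite U] (hc : ∀ a b : U, a * b = b * a)
    (h2 : ∀ a : U, a * a = 1) {n : ℕ} (hcard : Nat.card U = 2 ^ (n + 1)) {z : U} (hz : z ≠ 1) :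
    ∃ e : U ≃ (Fin (n + 1) → F), (∀ a b, e (a * b) = e a + e b) ∧ e z = Pi.single 0 1 := by
  classical
  letI : CommGroup U := { (inferInstance : Group U) with mul_comm := hc }
  letI : Module (ZMod 2) (Additive U) :=
    AddCommGroup.zmodModule (n := 2) (by intro x; rw [two_nsmul]; exact h2 x)
  have hfin : Module.finrank (ZMod 2) (Additive U) = n + 1 := by
    have h1 := Module.natCard_eq_pow_finrank (K := ZMod 2) (V := Additive U)
    have h3 : Nat.card (Additive U) = 2 ^ (n + 1) := by
      rw [← hcard]; exact Nat.card_congr Additive.toMul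
    rw [h3, Nat.card_eq_fintype_card, ZMod.card] at h1
    exact (Nat.pow_right_injective le_rfl h1).symm
  have hfin2 : Module.finrank (ZMod 2) (Fin (n + 1) → F) = n + 1 := by simp
  let f : Additive U ≃ₗ[ZMod 2] (Fin (n + 1) → F) := LinearEquiv.ofFinrankEq _ _ (hfin.trans hfin2.symm)
  have hfz : f (Additive.ofMul z) ≠ 0 := by
    intro h
    apply hz
    have h3 := f.map_eq_zero_iff.1 h
    exact h3
  obtain ⟨j, hj⟩ : ∃ j, f (Additive.ofMul z) j ≠ 0 := by
    by_contra hcon
    push Not at hcon
    exact hfz (funext hcon)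
  have hj1 : f (Additive.ofMul z) j = 1 := F_eq_one hj
  set s : Fin (n + 1) ≃ Fin (n + 1) := Equiv.swap 0 j with hs
  set v' : Fin (n + 1) → F := fun i => f (Additive.ofMul z) (s i) with hv'
  have hv0 : v' 0 = 1 := by rw [hv']; simp only [hs, Equiv.swap_apply_left]; exact hj1
  set u : Fin (n + 1) → F := v' + Pi.single 0 1 with hu
  have hu0 : u 0 = 0 := by rw [hu, Pi.add_apply, hv0, Pi.single_eq_same]; exact F_add_self 1
  have huu : ∀ c : F, c • u + c • u = 0 := by
    intro c; ext i
    exact F_add_self _
  let L : (Fin (n + 1) → F) → (Fin (n + 1) → F) := fun w => w + w 0 • u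
  have hLL : ∀ w, L (L w) = w := by
    intro w
    show w + w 0 • u + (w + w 0 • u) 0 • u = w
    have h3 : (w + w 0 • u) 0 = w 0 := by
      rw [Pi.add_apply, Pi.smul_apply, hu0, smul_zero, add_zero]
    rw [h3, add_assoc, huu, add_zero]
  have hLadd : ∀ a b, L (a + b) = L a + L b := by
    intro a b
    show a + b + (a + b) 0 • u = a + a 0 • u + (b + b 0 • u)
    rw [Pi.add_apply, add_smul]; abel
  have hLv : L v' = Pi.single 0 1 := by
    show v' + v' 0 • u = _
    rw [hv0, one_smul, hu, ← add_assoc]
    have : v' + v' = 0 := by ext i; exact F_add_self _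
    rw [this, zero_add]
  let e0 : U → (Fin (n + 1) → F) := fun a => L (fun i => f (Additive.ofMul a) (s i))
  have hinj : Function.Injective e0 := by
    intro a b hab
    have h3 := congrArg L hab
    simp only [e0, hLL] at h3
    have h4 : f (Additive.ofMul a) = f (Additive.ofMul b) := by
      ext i
      have := congrFun h3 (s.symm i)
      simpa using this
    exact Additive.ofMul.injective (f.injective h4)
  have hsurj : Function.Surjective e0 := by
    intro w
    refine ⟨Additive.toMul (f.symm (fun i => L w (s.symm i))), ?_⟩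
    show L (fun i => f (Additive.ofMul (Additive.toMul (f.symm (fun i => L w (s.symm i))))) (s i)) = w
    rw [ofMul_toMul, LinearEquiv.apply_symm_apply]
    have : (fun i => L w (s.symm (s i))) = L w := by ext i; rw [Equiv.symm_apply_apply]
    rw [this, hLL]
  refine ⟨Equiv.ofBijective e0 ⟨hinj, hsurj⟩, ?_, hLv⟩
  intro a b
  show L (fun i => f (Additive.ofMul (a * b)) (s i)) = L (fun i => f (Additive.ofMul a) (s i)) +
    L (fun i => f (Additive.ofMul b) (s i))
  rw [← hLadd]
  congr 1
  ext i
  rw [ofMul_mul, map_add]; rfl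

end Cfsg.Agent.H822.Coord
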