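import Cfsg.Agent.H822.SLTransLarge
import Cfsg.Agent.H822.Coord

/-!
# Affine groups inside `SL_{n+2}(2)` (helper822)

`aff A v`: the affine map `x ↦ A x + v` as an `(n+2) × (n+2)` matrix, the affine coordinate being the index `1`.
-/

set_option autoImplicit false

namespace Cfsg.Agent.H822.Aff

open Matrix Cfsg.Agent.H822.SLTrans

variable {n : ℕ}

/-- the index embedding avoiding `1` -/
abbrev sg (n : ℕ) : Fin (n + 1) → Fin (n + 2) := Fin.succAbove 1

/-- the affine matrix -/
def aff (A : Matrix (Fin (n + 1)) (Fin (n + 1)) F) (v : Fin (n + 1) → F) :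
    Matrix (Fin (n + 2)) (Fin (n + 2)) F :=
  Matrix.of (Fin.insertNth (α := fun _ => Fin (n + 2) → F) 1 (Fin.insertNth (α := fun _ => F) 1 1 0)
    (fun i => Fin.insertNth (α := fun _ => F) 1 (v i) (A i)))

section

variable (A B : Matrix (Fin (n + 1)) (Fin (n + 1)) F) (v w : Fin (n + 1) → F)

theorem aff11 : aff A v 1 1 = 1 := by
  unfold aff
  rw [Matrix.of_apply, Fin.insertNth_apply_same, Fin.insertNth_apply_same]

theorem aff1s (j : Fin (n + 1)) : aff A v 1 (sg n j) = 0 := by
  unfold aff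
  rw [Matrix.of_apply, Fin.insertNth_apply_same, Fin.insertNth_apply_succAbove]; rfl

theorem affs1 (i : Fin (n + 1)) : aff A v (sg n i) 1 = v i := by
  unfold aff
  rw [Matrix.of_apply, Fin.insertNth_apply_succAbove, Fin.insertNth_apply_same]

theorem affss (i j : Fin (n + 1)) : aff A v (sg n i) (sg n j) = A i j := by
  unfold aff
  rw [Matrix.of_apply, Fin.insertNth_apply_succAbove, Fin.insertNth_apply_succAbove]

theorem ext4 {A B : Matrix (Fin (n + 2)) (Fin (n + 2)) F} (h11 : A 1 1 = B 1 1)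
    (h1s : ∀ j, A 1 (sg n j) = B 1 (sg n j)) (hs1 : ∀ i, A (sg n i) 1 = B (sg n i) 1)
    (hss : ∀ i j, A (sg n i) (sg n j) = B (sg n i) (sg n j)) : A = B := by
  ext i j
  revert i
  rw [Fin.forall_iff_succAbove 1]
  constructor
  · revert j
    rw [Fin.forall_iff_succAbove 1]
    exact ⟨h11, h1s⟩
  · intro i
    revert j
    rw [Fin.forall_iff_succAbove 1]
    exact ⟨hs1 i, hss i⟩

theorem aff_mul : aff A v * aff B w = aff (A * B) (A *ᵥ w + v) := by
  apply ext4
  · rw [Matrix.mul_apply, Fin.sum_univ_succAbove _ 1, aff11, aff11, aff11, Finset.sum_eq_zero, add_zero,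
      mul_one]
    intro k _
    rw [aff1s, zero_mul]
  · intro j
    rw [Matrix.mul_apply, Fin.sum_univ_succAbove _ 1, aff11, aff1s, aff1s, Finset.sum_eq_zero, add_zero,
      mul_zero]
    intro k _
    rw [aff1s, zero_mul]
  · intro i
    rw [Matrix.mul_apply, Fin.sum_univ_succAbove _ 1, affs1, affs1, aff11, mul_one, Pi.add_apply, add_comm]
    congr 1
    exact Finset.sum_congr rfl fun k _ => by rw [affss, affs1]
  · intro i j
    rw [Matrix.mul_apply, Fin.sum_univ_succAbove _ 1, affs1, aff1s, affss, mul_zero, zero_add,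
      Matrix.mul_apply]
    exact Finset.sum_congr rfl fun k _ => by rw [affss, affss]

theorem aff_one : aff (1 : Matrix (Fin (n + 1)) (Fin (n + 1)) F) 0 = 1 := by
  apply ext4
  · rw [aff11, Matrix.one_apply_eq]
  · intro j
    rw [aff1s, Matrix.one_apply_ne (Fin.succAbove_ne 1 j).symm]
  · intro i
    rw [affs1, Matrix.one_apply_ne (Fin.succAbove_ne 1 i)]; rfl
  · intro i j
    rw [affss]
    by_cases hij : i = j
    · rw [hij, Matrix.one_apply_eq, Matrix.one_apply_eq]
    · rw [Matrix.one_apply_ne hij, Matrix.one_apply_ne]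
      exact fun h => hij (Fin.succAbove_right_injective h)

theorem sg_zero : sg n 0 = 0 := by
  unfold sg
  rw [Fin.succAbove_of_castSucc_lt]
  · simp
  · simp

theorem aff_single : aff (1 : Matrix (Fin (n + 1)) (Fin (n + 1)) F) (Pi.single 0 1) =
    Matrix.transvection 0 1 1 := by
  rw [Matrix.transvection, ← aff_one]
  apply ext4
  · rw [Matrix.add_apply, aff11, aff11, Matrix.single_apply, if_neg (by simp), add_zero]
  · intro j
    rw [Matrix.add_apply, aff1s, aff1s, Matrix.single_apply, if_neg (by simp), add_zero]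
  · intro i
    rw [Matrix.add_apply, affs1, affs1, Matrix.single_apply, Pi.zero_apply, zero_add, Pi.single_apply]
    by_cases hi : i = 0
    · rw [if_pos hi, if_pos]
      exact ⟨by rw [hi, sg_zero], rfl⟩
    · rw [if_neg hi, if_neg]
      rintro ⟨h, -⟩
      apply hi
      rw [← sg_zero] at h
      exact (Fin.succAbove_right_injective h).symm
  · intro i j
    rw [Matrix.add_apply, affss, affss, Matrix.single_apply, if_neg, add_zero]
    rintro ⟨-, h⟩
    exact (Fin.succAbove_ne 1 j) h.symm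

theorem aff_inj {A B : Matrix (Fin (n + 1)) (Fin (n + 1)) F} {v w : Fin (n + 1) → F}
    (h : aff A v = aff B w) : A = B ∧ v = w := by
  constructor
  · ext i j
    have := congrFun (congrFun h (sg n i)) (sg n j)
    rwa [affss, affss] at this
  · ext i
    have := congrFun (congrFun h (sg n i)) 1
    rwa [affs1, affs1] at this

end

/-- elements of the centraliser are affine -/
theorem exists_aff {s : SL (n + 2)} (hs : s ∈ CC n) :
    ∃ A v, (s : Matrix (Fin (n + 2)) (Fin (n + 2)) F) = aff A v := by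
  obtain ⟨h, x, y, c, rfl⟩ := mem_CC.1 hs
  refine ⟨(El h x y c : Matrix (Fin (n + 2)) (Fin (n + 2)) F).submatrix (sg n) (sg n),
    fun i => (El h x y c : Matrix (Fin (n + 2)) (Fin (n + 2)) F) (sg n i) 1, ?_⟩
  rw [coe_El]
  apply ext4
  · rw [aff11]; rfl
  · intro j
    rw [aff1s]
    have hj : sg n j ≠ 1 := Fin.succAbove_ne 1 j
    revert hj
    generalize sg n j = k
    intro hk
    refine Fin.cases ?_ (fun k => Fin.cases ?_ (fun k => ?_) k) k hk
    · intro _; rfl
    · intro h; exact absurd rfl h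
    · intro _; rfl
  · intro i
    rw [affs1]
  · intro i j
    rw [affss]; rfl

/-- the affine-type subgroups: `G = U ⋊ M` with coordinates on `U` -/
structure Hol {G : Type*} [Group G] (U M : Subgroup G) (n : ℕ) (z : G) where
  nU : U.Normal
  comm : ∀ a ∈ U, ∀ b ∈ U, a * b = b * a
  inf : U ⊓ M = ⊥
  sup : U ⊔ M = ⊤
  faith : ∀ m ∈ M, (∀ u ∈ U, m * u * m⁻¹ = u) → m = 1
  full : ∀ φ : ↥U ≃* ↥U, ∃ m ∈ M, ∀ u : ↥U, ((φ u : ↥U) : G) = m * u * m⁻¹
  e : U ≃ (Fin (n + 1) → F)
  e_mul : ∀ a b, e (a * b) = e a + e b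
  hz : z ∈ U
  e_z : e ⟨z, hz⟩ = Pi.single 0 1

namespace Hol

variable {G : Type*} [Group G] {U M : Subgroup G} {z : G} (H : Hol U M n z)

include H

theorem e_one : H.e 1 = 0 := by
  have h := H.e_mul 1 1
  rw [mul_one] at h
  exact left_eq_add.1 h

theorem exists_factor (g : G) : ∃ u : U, ∃ m ∈ M, g = u * m := by
  have := H.nU
  have hg : g ∈ U ⊔ M := by rw [H.sup]; trivial
  rw [Subgroup.mem_sup_of_normal_left] at hg
  obtain ⟨u, hu, m, hm, rfl⟩ := hg
  exact ⟨⟨u, hu⟩, m, hm, rfl⟩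

/-- the translation part -/
noncomputable def tr (g : G) : U := (H.exists_factor g).choose

theorem tr_spec (g : G) : ∃ m ∈ M, g = H.tr g * m := (H.exists_factor g).choose_spec

theorem tr_eq {g : G} {u : U} {m : G} (hm : m ∈ M) (hg : g = u * m) : H.tr g = u := by
  obtain ⟨m', hm', hg'⟩ := H.tr_spec g
  have h1 : (u : G)⁻¹ * H.tr g = m * m'⁻¹ := by
    rw [inv_mul_eq_iff_eq_mul, ← mul_assoc, ← hg]
    rw [eq_mul_inv_iff_mul_eq]; exact hg'.symm
  have h2 : (u : G)⁻¹ * H.tr g ∈ U ⊓ M := Subgroup.mem_inf.2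
    ⟨mul_mem (inv_mem u.2) (H.tr g).2, by rw [h1]; exact mul_mem hm (inv_mem hm')⟩
  rw [H.inf, Subgroup.mem_bot] at h2
  exact Subtype.ext (inv_mul_eq_one.1 h2).symm

/-- conjugation on `U` -/
def cj (g : G) (u : U) : U := ⟨g * u * g⁻¹, H.nU.conj_mem u u.2 g⟩

theorem cj_mul (g : G) (a b : U) : H.cj g (a * b) = H.cj g a * H.cj g b := by
  apply Subtype.ext
  show g * (a * b) * g⁻¹ = (g * a * g⁻¹) * (g * b * g⁻¹)
  group

theorem cj_comp (g h : G) (a : U) : H.cj (g * h) a = H.cj g (H.cj h a) := by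
  apply Subtype.ext
  show (g * h) * a * (g * h)⁻¹ = g * (h * a * h⁻¹) * g⁻¹
  group

theorem cj_U (u : G) (hu : u ∈ U) (a : U) : H.cj u a = a := by
  apply Subtype.ext
  show u * a * u⁻¹ = a
  rw [H.comm u hu a a.2]; group

/-- the linear part -/
noncomputable def lin (g : G) : (Fin (n + 1) → F) →ₗ[F] (Fin (n + 1) → F) :=
  AddMonoidHom.toZModLinearMap 2
    { toFun := fun v => H.e (H.cj g (H.e.symm v))
      map_zero' := by
        have h1 : H.e.symm 0 = 1 := by rw [Equiv.symm_apply_eq]; exact H.e_one.symm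
        have h2 : H.cj g 1 = 1 := by
          apply Subtype.ext
          show g * 1 * g⁻¹ = 1
          group
        rw [h1, h2]; exact H.e_one
      map_add' := by
        intro v w
        have h1 : H.e.symm (v + w) = H.e.symm v * H.e.symm w := by
          rw [Equiv.symm_apply_eq, H.e_mul, Equiv.apply_symm_apply, Equiv.apply_symm_apply]
        rw [h1, H.cj_mul, H.e_mul] }

theorem lin_apply (g : G) (v : Fin (n + 1) → F) : H.lin g v = H.e (H.cj g (H.e.symm v)) := rfl

/-- the matrix of the linear part -/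
noncomputable def mat (g : G) : Matrix (Fin (n + 1)) (Fin (n + 1)) F := LinearMap.toMatrix' (H.lin g)

theorem mat_mulVec (g : G) (v : Fin (n + 1) → F) : H.mat g *ᵥ v = H.e (H.cj g (H.e.symm v)) := by
  rw [mat, LinearMap.toMatrix'_mulVec]; rfl

theorem mat_mul (g h : G) : H.mat (g * h) = H.mat g * H.mat h := by
  unfold mat
  rw [← LinearMap.toMatrix'_mul]
  congr 1
  ext1 v
  apply LinearMap.ext_ring
  show H.lin (g * h) _ = H.lin g (H.lin h _)
  rw [lin_apply, lin_apply, lin_apply, Equiv.symm_apply_apply, cj_comp]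

theorem mat_eq_of {g : G} {B : Matrix (Fin (n + 1)) (Fin (n + 1)) F}
    (h : ∀ u : U, H.e (H.cj g u) = B *ᵥ H.e u) : H.mat g = B := by
  have h1 : ∀ v, H.mat g *ᵥ v = B *ᵥ v := by
    intro v
    rw [H.mat_mulVec, h, Equiv.apply_symm_apply]
  ext i j
  have h2 := congrFun (h1 (Pi.single j 1)) i
  rwa [Matrix.mulVec_single_one, Matrix.mulVec_single_one] at h2

/-- the embedding as matrices -/
noncomputable def phiM : G →* Matrix (Fin (n + 2)) (Fin (n + 2)) F where
  toFun g := aff (H.mat g) (H.e (H.tr g))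
  map_one' := by
    have h1 : H.tr 1 = 1 := H.tr_eq (m := 1) (one_mem M) (by simp)
    have h2 : H.mat 1 = 1 := H.mat_eq_of (fun u => by
      rw [Matrix.one_mulVec, H.cj_U 1 (one_mem U)])
    rw [h1, h2, H.e_one, aff_one]
  map_mul' g h := by
    rw [aff_mul, ← H.mat_mul, H.mat_mulVec, Equiv.symm_apply_apply, ← H.e_mul]
    congr 2
    obtain ⟨m, hm, hg⟩ := H.tr_spec g
    obtain ⟨m', hm', hh⟩ := H.tr_spec h
    refine H.tr_eq (m := m * m') (mul_mem hm hm') ?_
    have hc : (H.cj g (H.tr h) : G) = g * H.tr h * g⁻¹ := rfl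
    rw [Subgroup.coe_mul, hc]
    -- `g u' g⁻¹ = m u' m⁻¹`
    have h3 : g * (H.tr h : G) * g⁻¹ = m * H.tr h * m⁻¹ := by
      have h4 : m * (H.tr h : G) * m⁻¹ ∈ U := H.nU.conj_mem _ (H.tr h).2 m
      calc g * (H.tr h : G) * g⁻¹ = (H.tr g : G) * (m * H.tr h * m⁻¹) * (H.tr g : G)⁻¹ := by
            conv_lhs => rw [hg]
            group
        _ = _ := by rw [H.comm _ (H.tr g).2 _ h4]; group
    rw [h3, H.comm _ (H.nU.conj_mem _ (H.tr h).2 m) _ (H.tr g).2]
    conv_lhs => rw [hg, hh]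
    group

theorem phiM_apply (g : G) : H.phiM g = aff (H.mat g) (H.e (H.tr g)) := rfl

theorem det_phiM (g : G) : (H.phiM g).det = 1 := by
  apply eq_one_of_ne
  intro h
  have h1 : (H.phiM g * H.phiM g⁻¹).det = 1 := by
    rw [← map_mul, mul_inv_cancel, map_one, Matrix.det_one]
  rw [Matrix.det_mul, h, zero_mul] at h1
  exact zero_ne_one h1

/-- the embedding in `SL` -/
noncomputable def phi : G →* SL (n + 2) where
  toFun g := ⟨H.phiM g, H.det_phiM g⟩
  map_one' := Subtype.ext (map_one H.phiM)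
  map_mul' g h := Subtype.ext (map_mul H.phiM g h)

theorem coe_phi (g : G) : (H.phi g : Matrix (Fin (n + 2)) (Fin (n + 2)) F) = aff (H.mat g) (H.e (H.tr g)) := rfl

theorem phi_injective : Function.Injective H.phi := by
  rw [injective_iff_map_eq_one]
  intro g hg
  have h1 : aff (H.mat g) (H.e (H.tr g)) = aff 1 0 := by
    rw [← H.coe_phi, hg, aff_one]; rfl
  obtain ⟨h2, h3⟩ := aff_inj h1
  have h4 : H.tr g = 1 := H.e.injective (h3.trans H.e_one.symm)
  obtain ⟨m, hm, hgm⟩ := H.tr_spec g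
  rw [h4, Subgroup.coe_one, one_mul] at hgm
  rw [hgm]
  refine H.faith m hm fun u hu => ?_
  have h5 := H.mat_mulVec g (H.e ⟨u, hu⟩)
  rw [h2, Matrix.one_mulVec, Equiv.symm_apply_apply, hgm] at h5
  exact (congrArg Subtype.val (H.e.injective h5)).symm

theorem phi_z : H.phi z = zz n := by
  apply Subtype.ext
  rw [H.coe_phi, coe_zz]
  have h1 : H.tr z = ⟨z, H.hz⟩ := H.tr_eq (m := 1) (one_mem M) (by simp)
  have h2 : H.mat z = 1 := H.mat_eq_of (fun u => by
    rw [Matrix.one_mulVec, H.cj_U z H.hz])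
  rw [h1, h2, H.e_z, aff_single]

theorem CC_le : CC n ≤ H.phi.range := by
  intro s hs
  obtain ⟨A, v, hA⟩ := exists_aff hs
  obtain ⟨B, w, hB⟩ := exists_aff (inv_mem hs)
  have h1 : A * B = 1 := by
    have h2 : aff A v * aff B w = aff 1 0 := by
      rw [← hA, ← hB, ← Matrix.SpecialLinearGroup.coe_mul, mul_inv_cancel, aff_one]; rfl
    rw [aff_mul] at h2
    exact (aff_inj h2).1
  have h1' : B * A = 1 := by
    have h2 : aff B w * aff A v = aff 1 0 := by
      rw [← hA, ← hB, ← Matrix.SpecialLinearGroup.coe_mul, inv_mul_cancel, aff_one]; rfl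
    rw [aff_mul] at h2
    exact (aff_inj h2).1
  let φ : U ≃* U :=
    { toFun := fun u => H.e.symm (A *ᵥ H.e u)
      invFun := fun u => H.e.symm (B *ᵥ H.e u)
      left_inv := by
        intro u
        show H.e.symm (B *ᵥ H.e (H.e.symm (A *ᵥ H.e u))) = u
        rw [Equiv.apply_symm_apply, Matrix.mulVec_mulVec, h1', Matrix.one_mulVec, Equiv.symm_apply_apply]
      right_inv := by
        intro u
        show H.e.symm (A *ᵥ H.e (H.e.symm (B *ᵥ H.e u))) = u
        rw [Equiv.apply_symm_apply, Matrix.mulVec_mulVec, h1, Matrix.one_mulVec, Equiv.symm_apply_apply]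
      map_mul' := by
        intro a b
        show H.e.symm (A *ᵥ H.e (a * b)) = H.e.symm (A *ᵥ H.e a) * H.e.symm (A *ᵥ H.e b)
        rw [Equiv.symm_apply_eq, H.e_mul, H.e_mul, Equiv.apply_symm_apply, Equiv.apply_symm_apply,
          Matrix.mulVec_add] }
  obtain ⟨m, hm, hφ⟩ := H.full φ
  refine ⟨(H.e.symm v : U) * m, ?_⟩
  apply Subtype.ext
  rw [H.coe_phi, hA]
  have h3 : H.tr ((H.e.symm v : U) * m) = H.e.symm v := H.tr_eq hm rfl
  have h4 : H.mat ((H.e.symm v : U) * m) = A := by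
    refine H.mat_eq_of fun u => ?_
    rw [cj_comp, H.cj_U _ (H.e.symm v).2]
    have h5 : H.cj m u = φ u := Subtype.ext (hφ u).symm
    rw [h5]
    show H.e (H.e.symm (A *ᵥ H.e u)) = _
    rw [Equiv.apply_symm_apply]
  rw [h3, h4, Equiv.apply_symm_apply]

end Hol

end Cfsg.Agent.H822.Aff
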