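import Cfsg.Agent.LargeExtra.TwoCentral
import Cfsg.Agent.LargeExtra.Nine.ToCent
import Cfsg.Prelude.Def_MonsterType

/-!
# Large extraspecial 2-subgroups: `Cfsg.IsLargeExtraspecial` and `Large Q z` (helper822)

* `exists_large`, `large_of_zpowers`: extraspecial + `C_G(Q) = Z(Q)` + `C_G(Z(Q)) ≤ N_G(Q)` give `Large Q z`.
* `large_of_isLarge`: the same from `IsLargeExtraspecial`.
* `isLarge_of_large`: `Large Q z`, `|Q| ≠ 2`, no odd-order `Q`-invariant subgroup: `IsLargeExtraspecial Q`.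
* `isLarge_of_core`: if `z ∈ O₂(C_G(b))` for some `b ∈ Q \ Z(Q)` then `Q` is large.
-/

set_option autoImplicit false

namespace Cfsg.Agent.H822.Bridge

open Cfsg.Agent.Co2Type.Quad Cfsg.Agent.LargeExtra.Base

variable {G : Type*} [Group G]

theorem mem_map_center_iff {A : Subgroup G} {x : G} :
    x ∈ (Subgroup.center A).map A.subtype ↔ x ∈ A ∧ ∀ y ∈ A, y * x = x * y := by
  constructor
  · rintro ⟨⟨x, hx⟩, hxc, rfl⟩
    refine ⟨hx, fun y hy => ?_⟩
    exact congrArg Subtype.val (Subgroup.mem_center_iff.mp hxc ⟨y, hy⟩)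
  · rintro ⟨hx, h⟩
    refine ⟨⟨x, hx⟩, Subgroup.mem_center_iff.mpr fun y => Subtype.ext (h y y.2), rfl⟩

/-- the centre of an extraspecial 2-subgroup is generated by an involution -/
theorem exists_center (Q : Subgroup G) (h1 : Cfsg.IsExtraspecial 2 Q) :
    ∃ z : G, z ≠ 1 ∧ z * z = 1 ∧ (∀ x, x ∈ (Subgroup.center Q).map Q.subtype ↔ x = 1 ∨ x = z) := by
  have hc : Nat.card ((Subgroup.center Q).map Q.subtype) = 2 := by
    rw [Nat.card_congr ((Subgroup.center Q).equivMapOfInjective Q.subtype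
      Q.subtype_injective).toEquiv.symm]
    exact h1.2
  obtain ⟨a, b, hab, huniv⟩ := Nat.card_eq_two_iff.1 hc
  have ha : ∀ w : ((Subgroup.center Q).map Q.subtype), w = a ∨ w = b := by
    intro w
    have : w ∈ ({a, b} : Set ((Subgroup.center Q).map Q.subtype)) := by rw [huniv]; trivial
    simpa using this
  -- choose z the non-identity element
  obtain ⟨z, hz1, hz⟩ : ∃ z : ((Subgroup.center Q).map Q.subtype), z ≠ 1 ∧ ∀ w, w = 1 ∨ w = z := by
    rcases ha 1 with h | h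
    · refine ⟨b, ?_, ?_⟩
      · rw [h]; exact hab.symm
      · rw [h]; exact ha
    · refine ⟨a, ?_, ?_⟩
      · rw [h]; exact hab
      · rw [h]; exact fun w => (ha w).symm
  refine ⟨z, fun h => hz1 (Subtype.ext h), ?_, ?_⟩
  · rcases hz (z * z) with h | h
    · exact congrArg Subtype.val h
    · exact absurd (mul_eq_left.1 h) hz1
  · intro x
    constructor
    · intro hx
      rcases hz ⟨x, hx⟩ with h | h
      · left; exact congrArg Subtype.val h
      · right; exact congrArg Subtype.val h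
    · rintro (h | h)
      · rw [h]; exact one_mem _
      · rw [h]; exact z.2

theorem mem_zpowers_iff_of_sq {z x : G} (hz : z * z = 1) : x ∈ Subgroup.zpowers z ↔ x = 1 ∨ x = z := by
  constructor
  · rintro ⟨n, rfl⟩
    have h2 : z ^ (2 : ℤ) = 1 := by rw [zpow_two]; exact hz
    rcases Int.even_or_odd' n with ⟨k, hk | hk⟩
    · left
      show z ^ n = 1
      rw [hk, zpow_mul, h2, one_zpow]
    · right
      show z ^ n = z
      rw [hk, zpow_add, zpow_mul, h2, one_zpow, one_mul, zpow_one]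
  · rintro (h | h)
    · rw [h]; exact one_mem _
    · rw [h]; exact Subgroup.mem_zpowers z

/-- `Large Q z` from the hypotheses of the listed statements, for an element `z` generating the centre -/
theorem large_of_mem (Q : Subgroup G) (h1 : Cfsg.IsExtraspecial 2 Q)
    (h2 : Subgroup.centralizer (Q : Set G) = (Subgroup.center Q).map Q.subtype)
    (h3 : Subgroup.centralizer (((Subgroup.center Q).map Q.subtype : Subgroup G) : Set G) ≤
      Subgroup.normalizer (Q : Set G))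
    {z : G} (hz1 : z ≠ 1) (hz2 : z * z = 1)
    (hZ : ∀ x, x ∈ (Subgroup.center Q).map Q.subtype ↔ x = 1 ∨ x = z) : Large Q z := by
  have hzm : z ∈ (Subgroup.center Q).map Q.subtype := (hZ z).2 (Or.inr rfl)
  obtain ⟨hzQ, hzc⟩ := mem_map_center_iff.1 hzm
  have hcm : ∀ x : Q, x ∈ Subgroup.center Q → (x : G) = 1 ∨ (x : G) = z := fun x hx =>
    (hZ x).1 ⟨x, hx, rfl⟩
  refine ⟨hzQ, hz1, hz2, hzc, ?_, ?_, ?_, ?_, ?_⟩
  · intro g hg x hx
    have hgN : g ∈ Subgroup.normalizer (Q : Set G) := by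
      apply h3
      rw [Subgroup.mem_centralizer_iff]
      intro y hy
      rcases (hZ y).1 hy with h | h
      · rw [h, one_mul, mul_one]
      · rw [h]; exact hg.symm
    exact (Subgroup.mem_normalizer_iff.1 hgN x).1 hx
  · intro x hx
    have h4 : (⟨x, hx⟩ : Q) ^ 2 ∈ Subgroup.center Q :=
      Cfsg.Agent.Transfer.Extraspecial.pow_mem_center h1 ⟨x, hx⟩
    have h5 := hcm _ h4
    rw [pow_two] at h5
    exact h5
  · intro x hx y hy
    have h4 := Cfsg.Agent.Transfer.Extraspecial.comm_mem_center h1 (⟨y, hy⟩ : Q)⁻¹ (⟨x, hx⟩ : Q)⁻¹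
    rcases hcm _ h4 with h | h
    · left
      have h5 : y⁻¹ * x⁻¹ * (y⁻¹)⁻¹ * (x⁻¹)⁻¹ = 1 := h
      calc x * y = x * y * (y⁻¹ * x⁻¹ * (y⁻¹)⁻¹ * (x⁻¹)⁻¹) := by rw [h5, mul_one]
        _ = y * x := by group
    · right
      have h5 : y⁻¹ * x⁻¹ * (y⁻¹)⁻¹ * (x⁻¹)⁻¹ = z := h
      have hzi : z⁻¹ = z := inv_eq_of_mul_eq_one_left hz2
      calc x * y = (x * y * (y⁻¹ * x⁻¹ * (y⁻¹)⁻¹ * (x⁻¹)⁻¹)) *
            (y⁻¹ * x⁻¹ * (y⁻¹)⁻¹ * (x⁻¹)⁻¹)⁻¹ := by group
        _ = y * x * z⁻¹ := by rw [h5]; rw [← h5]; group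
        _ = y * x * z := by rw [hzi]
  · intro x hx hc
    exact (hZ x).1 (mem_map_center_iff.2 ⟨hx, fun y hy => (hc y hy).symm⟩)
  · intro g _ hc
    have h4 : g ∈ Subgroup.centralizer (Q : Set G) :=
      Subgroup.mem_centralizer_iff.2 fun y hy => (hc y hy).symm
    rw [h2] at h4
    rcases (hZ g).1 h4 with h | h
    · rw [h]; exact one_mem _
    · rw [h]; exact hzQ

theorem exists_large (Q : Subgroup G) (h1 : Cfsg.IsExtraspecial 2 Q)
    (h2 : Subgroup.centralizer (Q : Set G) = (Subgroup.center Q).map Q.subtype)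
    (h3 : Subgroup.centralizer (((Subgroup.center Q).map Q.subtype : Subgroup G) : Set G) ≤
      Subgroup.normalizer (Q : Set G)) :
    ∃ z : G, (Subgroup.center Q).map Q.subtype = Subgroup.zpowers z ∧
      (∀ x, x ∈ (Subgroup.center Q).map Q.subtype ↔ x = 1 ∨ x = z) ∧ Large Q z := by
  obtain ⟨z, hz1, hz2, hZ⟩ := exists_center Q h1
  refine ⟨z, ?_, hZ, large_of_mem Q h1 h2 h3 hz1 hz2 hZ⟩
  ext x
  rw [hZ, mem_zpowers_iff_of_sq hz2]

/-- if the centre is `⟨z⟩` then `z` is its non-identity element -/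
theorem center_iff_of_zpowers {Q : Subgroup G} (h1 : Cfsg.IsExtraspecial 2 Q) {z : G}
    (hz : (Subgroup.center Q).map Q.subtype = Subgroup.zpowers z) :
    z ≠ 1 ∧ z * z = 1 ∧ (∀ x, x ∈ (Subgroup.center Q).map Q.subtype ↔ x = 1 ∨ x = z) := by
  obtain ⟨w, hw1, hw2, hW⟩ := exists_center Q h1
  have hzm : z ∈ (Subgroup.center Q).map Q.subtype := by rw [hz]; exact Subgroup.mem_zpowers z
  rcases (hW z).1 hzm with h | h
  · exfalso
    have : w ∈ (Subgroup.center Q).map Q.subtype := (hW w).2 (Or.inr rfl)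
    rw [hz, h, Subgroup.zpowers_one_eq_bot, Subgroup.mem_bot] at this
    exact hw1 this
  · rw [h]; exact ⟨hw1, hw2, hW⟩

theorem large_of_zpowers (Q : Subgroup G) (h1 : Cfsg.IsExtraspecial 2 Q)
    (h2 : Subgroup.centralizer (Q : Set G) = (Subgroup.center Q).map Q.subtype)
    (h3 : Subgroup.centralizer (((Subgroup.center Q).map Q.subtype : Subgroup G) : Set G) ≤
      Subgroup.normalizer (Q : Set G)) {z : G}
    (hz : (Subgroup.center Q).map Q.subtype = Subgroup.zpowers z) : Large Q z := by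
  obtain ⟨hz1, hz2, hZ⟩ := center_iff_of_zpowers h1 hz
  exact large_of_mem Q h1 h2 h3 hz1 hz2 hZ

/-- the centre of `Q` as a subgroup of `G` -/
theorem center_eq {Q : Subgroup G} {z : G} (h : Large Q z) {x : G} :
    x ∈ (Subgroup.center Q).map Q.subtype ↔ x = 1 ∨ x = z := by
  rw [mem_map_center_iff]
  constructor
  · rintro ⟨hx, hc⟩
    exact h.cent x hx fun y hy => (hc y hy).symm
  · rintro (hx | hx)
    · rw [hx]; exact ⟨one_mem _, fun y _ => by rw [one_mul, mul_one]⟩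
    · rw [hx]; exact ⟨h.z_mem, h.comm_z⟩

theorem center_eq_zpowers {Q : Subgroup G} {z : G} (h : Large Q z) :
    (Subgroup.center Q).map Q.subtype = Subgroup.zpowers z := by
  ext x
  rw [center_eq h, mem_zpowers_iff_of_sq h.z_sq]

/-- an element centralising `Q` is `1` or `z` -/
theorem eq_of_centralizes {Q : Subgroup G} {z : G} (h : Large Q z) {g : G}
    (hg : ∀ x ∈ Q, g * x = x * g) : g = 1 ∨ g = z :=
  h.cent g (h.self g (hg z h.z_mem) hg) hg

theorem centralizer_eq {Q : Subgroup G} {z : G} (h : Large Q z) :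
    Subgroup.centralizer (Q : Set G) = (Subgroup.center Q).map Q.subtype := by
  ext g
  rw [center_eq h]
  constructor
  · intro hg
    exact eq_of_centralizes h fun x hx => (Subgroup.mem_centralizer_iff.1 hg x hx).symm
  · intro hg
    rw [Subgroup.mem_centralizer_iff]
    intro x hx
    rcases hg with hg | hg
    · rw [hg, one_mul, mul_one]
    · rw [hg]; exact h.comm_z x hx

theorem centralizer_center_le {Q : Subgroup G} {z : G} (h : Large Q z) :
    Subgroup.centralizer (((Subgroup.center Q).map Q.subtype : Subgroup G) : Set G) ≤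
      Subgroup.normalizer (Q : Set G) := by
  intro g hg
  have hgz : g * z = z * g :=
    (Subgroup.mem_centralizer_iff.1 hg z ((center_eq h).2 (Or.inr rfl))).symm
  rw [Subgroup.mem_normalizer_iff]
  intro x
  constructor
  · exact fun hx => h.conj_mem g hgz x hx
  · intro hx
    have hgz' : g⁻¹ * z = z * g⁻¹ := by
      rw [inv_mul_eq_iff_eq_mul, ← mul_assoc, hgz, mul_inv_cancel_right]
    have := h.conj_mem g⁻¹ hgz' _ hx
    have e : g⁻¹ * (g * x * g⁻¹) * g⁻¹⁻¹ = x := by group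
    rwa [e] at this

theorem isLarge_of_large [Finite G] {Q : Subgroup G} {z : G} (h : Large Q z) (h2 : Nat.card Q ≠ 2)
    (hK : ∀ K : Subgroup G, Odd (Nat.card K) → Q ≤ Subgroup.normalizer (K : Set G) → K = ⊥) :
    Cfsg.IsLargeExtraspecial Q :=
  ⟨Cfsg.Agent.LargeExtra.Nine.ToCent.isExtraspecial_Q h h2, centralizer_eq h, centralizer_center_le h, hK⟩

/-- a 2-group meets an odd-order subgroup trivially -/
theorem eq_one_of_mem [Finite G] {P K : Subgroup G} (hP : IsPGroup 2 P) (hK : Odd (Nat.card K)) {x : G}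
    (h1 : x ∈ P) (h2 : x ∈ K) : x = 1 := by
  obtain ⟨n, hn⟩ := hP ⟨x, h1⟩
  have h3 : x ^ (2 ^ n) = 1 := congrArg Subtype.val hn
  have h4 : orderOf x ∣ 2 ^ n := orderOf_dvd_of_pow_eq_one h3
  have h5 : orderOf x ∣ Nat.card K := by
    have := orderOf_dvd_natCard (⟨x, h2⟩ : K)
    rwa [Subgroup.orderOf_mk] at this
  have h6 : (2 ^ n).Coprime (Nat.card K) := Nat.Coprime.pow_left _ (Nat.coprime_two_left.2 hK)
  have := Nat.eq_one_of_dvd_coprimes h6 h4 h5
  exact orderOf_eq_one_iff.1 this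

/-- (S5421, the key step) If `z` lies in a 2-subgroup `P` normalised by `C_G(b)`, `b ∈ Q`, then an odd-order
`Q`-invariant subgroup is trivial. -/
theorem odd_eq_bot [Finite G] {Q : Subgroup G} {z : G} (h : Large Q z) {b : G} (hb : b ∈ Q) (hb1 : b ≠ 1)
    (hbz : b ≠ z) {P : Subgroup G} (hP : IsPGroup 2 P) (hzP : z ∈ P)
    (hPn : ∀ g, g * b = b * g → ∀ x ∈ P, g * x * g⁻¹ ∈ P) (hbb : b * b = 1)
    (K : Subgroup G) (hK : Odd (Nat.card K)) (hQK : Q ≤ Subgroup.normalizer (K : Set G)) : K = ⊥ := by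
  have hQ2 : IsPGroup 2 Q := isPGroup h
  -- `C_K(z) = 1`
  have hz : ∀ k ∈ K, k * z = z * k → k = 1 := by
    intro k hk hkz
    have hc : ∀ x ∈ Q, k * x = x * k := by
      intro x hx
      have h1 : k * x * k⁻¹ * x⁻¹ ∈ Q := mul_mem (h.conj_mem k hkz x hx) (inv_mem hx)
      have h2 : k * x * k⁻¹ * x⁻¹ ∈ K := by
        have := (Subgroup.mem_normalizer_iff.1 (hQK hx) k⁻¹).1 (inv_mem hk)
        have h3 := mul_mem hk this
        have e : k * (x * k⁻¹ * x⁻¹) = k * x * k⁻¹ * x⁻¹ := by group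
        rwa [e] at h3
      have h3 := eq_one_of_mem hQ2 hK h1 h2
      have e : k * x = (k * x * k⁻¹ * x⁻¹) * (x * k) := by group
      rw [e, h3, one_mul]
    have h1 : k ∈ Q := h.self k hkz hc
    exact eq_one_of_mem hQ2 hK h1 hk
  -- `C_K(b) = 1`
  have hbK : ∀ k ∈ K, k * b = b * k → k = 1 := by
    intro k hk hkb
    apply hz k hk
    have h1 : k * z * k⁻¹ * z⁻¹ ∈ P := mul_mem (hPn k hkb z hzP) (inv_mem hzP)
    have h2 : k * z * k⁻¹ * z⁻¹ ∈ K := by
      have := (Subgroup.mem_normalizer_iff.1 (hQK h.z_mem) k⁻¹).1 (inv_mem hk)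
      have h3 := mul_mem hk this
      have e : k * (z * k⁻¹ * z⁻¹) = k * z * k⁻¹ * z⁻¹ := by group
      rwa [e] at h3
    have h3 := eq_one_of_mem hP hK h1 h2
    have e : k * z = (k * z * k⁻¹ * z⁻¹) * (z * k) := by group
    rw [e, h3, one_mul]
  -- `b * z` is conjugate to `b` in `Q`
  obtain ⟨y, hy, hyb⟩ := exists_not_comm h hb hb1 hbz
  have hbz' : y * b * y⁻¹ = b * z := by
    rw [hyb, mul_assoc b y z, h.comm_z y hy, ← mul_assoc, mul_inv_cancel_right]
  have hbzK : ∀ k ∈ K, k * (b * z) = (b * z) * k → k = 1 := by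
    intro k hk hkb
    have h1 : y⁻¹ * k * y ∈ K := by
      have := (Subgroup.mem_normalizer_iff.1 (hQK (inv_mem hy)) k).1 hk
      rwa [inv_inv] at this
    have h2 : (y⁻¹ * k * y) * b = b * (y⁻¹ * k * y) := by
      have h3 : (y⁻¹ * k * y) * b = y⁻¹ * (k * (y * b * y⁻¹)) * y := by group
      have h4 : b * (y⁻¹ * k * y) = y⁻¹ * ((y * b * y⁻¹) * k) * y := by group
      rw [h3, h4, hbz', hkb]
    have h3 := hbK _ h1 h2
    calc k = y * (y⁻¹ * k * y) * y⁻¹ := by group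
      _ = 1 := by rw [h3]; group
  -- an automorphism without fixed points inverts: so `z`, `b`, `b * z` all invert `K`
  have hinv : ∀ s : G, s ∈ Q → s * s = 1 → (∀ k ∈ K, k * s = s * k → k = 1) →
      ∀ k ∈ K, s * k * s⁻¹ = k⁻¹ := by
    intro s hs hss hfix
    -- the map `k ↦ k⁻¹ * (s k s⁻¹)` is injective on `K`, hence surjective
    have hsK : ∀ k ∈ K, s * k * s⁻¹ ∈ K := fun k hk =>
      (Subgroup.mem_normalizer_iff.1 (hQK hs) k).1 hk
    let f : K → K := fun k => ⟨(k : G)⁻¹ * (s * k * s⁻¹), mul_mem (inv_mem k.2) (hsK k k.2)⟩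
    have hf : Function.Injective f := by
      intro k l hkl
      have h1 : (k : G)⁻¹ * (s * k * s⁻¹) = (l : G)⁻¹ * (s * l * s⁻¹) := congrArg Subtype.val hkl
      have h2 : ((l : G) * (k : G)⁻¹) * s = s * ((l : G) * (k : G)⁻¹) := by
        have h3 : (l : G) * (k : G)⁻¹ = (s * l * s⁻¹) * (s * k * s⁻¹)⁻¹ := by
          rw [eq_mul_inv_iff_mul_eq, mul_assoc, h1]; group
        conv_lhs => rw [h3]
        group
      have h3 := hfix _ (mul_mem l.2 (inv_mem k.2)) h2
      apply Subtype.ext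
      exact (mul_inv_eq_one.1 h3).symm
    have hsurj : Function.Surjective f := Finite.injective_iff_surjective.1 hf
    intro k hk
    obtain ⟨l, hl⟩ := hsurj ⟨k, hk⟩
    have h1 : (l : G)⁻¹ * (s * l * s⁻¹) = k := congrArg Subtype.val hl
    have hsi : s⁻¹ = s := inv_eq_of_mul_eq_one_left hss
    rw [← h1, hsi]
    calc s * ((l : G)⁻¹ * (s * l * s)) * s = (s * (l : G)⁻¹ * s) * l * (s * s) := by group
      _ = (s * (l : G)⁻¹ * s) * l := by rw [hss, mul_one]
      _ = ((l : G)⁻¹ * (s * l * s))⁻¹ := by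
          rw [mul_inv_rev, mul_inv_rev, mul_inv_rev, hsi, inv_inv]; group
  have i1 := hinv z h.z_mem h.z_sq hz
  have i2 := hinv b hb hbb hbK
  have hbzQ : b * z ∈ Q := mul_mem hb h.z_mem
  have hbzz : (b * z) * (b * z) = 1 := by
    calc (b * z) * (b * z) = b * (z * b) * z := by group
      _ = b * (b * z) * z := by rw [h.comm_z b hb]
      _ = (b * b) * (z * z) := by group
      _ = 1 := by rw [hbb, h.z_sq, mul_one]
  have i3 := hinv (b * z) hbzQ hbzz hbzK
  rw [eq_bot_iff]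
  intro k hk
  rw [Subgroup.mem_bot]
  apply hbzK k hk
  have h1 : (b * z) * k * (b * z)⁻¹ = k := by
    calc (b * z) * k * (b * z)⁻¹ = b * (z * k * z⁻¹) * b⁻¹ := by group
      _ = b * k⁻¹ * b⁻¹ := by rw [i1 k hk]
      _ = (k⁻¹)⁻¹ := i2 _ (inv_mem hk)
      _ = k := inv_inv k
  calc k * (b * z) = ((b * z) * k * (b * z)⁻¹) * (b * z) := by rw [h1]
    _ = (b * z) * k := by group

theorem isLarge_of_core [Finite G] {Q : Subgroup G} {z : G} (h : Large Q z) {b : G} (hb : b ∈ Q) (hb1 : b ≠ 1)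
    (hbz : b ≠ z) {P : Subgroup G} (hP : IsPGroup 2 P) (hzP : z ∈ P)
    (hPn : ∀ g, g * b = b * g → ∀ x ∈ P, g * x * g⁻¹ ∈ P) (hbb : b * b = 1) :
    Cfsg.IsLargeExtraspecial Q := by
  refine isLarge_of_large h ?_ (odd_eq_bot h hb hb1 hbz hP hzP hPn hbb)
  intro hc
  obtain ⟨u, v, huv, huniv⟩ := Nat.card_eq_two_iff.1 hc
  have key : ∀ w : Q, w = u ∨ w = v := by
    intro w
    have : w ∈ ({u, v} : Set Q) := by rw [huniv]; trivial
    simpa using this
  have h1 : (⟨b, hb⟩ : Q) ≠ 1 := fun h' => hb1 (congrArg Subtype.val h')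
  have h2 : (⟨b, hb⟩ : Q) ≠ ⟨z, h.z_mem⟩ := fun h' => hbz (congrArg Subtype.val h')
  have h3 : (⟨z, h.z_mem⟩ : Q) ≠ 1 := fun h' => h.z_ne (congrArg Subtype.val h')
  rcases key ⟨b, hb⟩ with h4 | h4 <;> rcases key 1 with h5 | h5 <;> rcases key ⟨z, h.z_mem⟩ with h6 | h6
  · exact h1 (h4.trans h5.symm)
  · exact h1 (h4.trans h5.symm)
  · exact h2 (h4.trans h6.symm)
  · exact h3 (h6.trans h5.symm)
  · exact h3 (h6.trans h5.symm)
  · exact h2 (h4.trans h6.symm)
  · exact h1 (h4.trans h5.symm)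
  · exact h1 (h4.trans h5.symm)

end Cfsg.Agent.H822.Bridge
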