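import Cfsg.Agent.H822.Aff

/-!
# The holomorph of an elementary abelian 2-group: centraliser of an involution (helper822)
-/

set_option autoImplicit false
set_option linter.unusedSectionVars false

namespace Cfsg.Agent.H822.Aff

open Matrix Cfsg.Agent.H822.SLTrans
open Cfsg.Agent.Co2Type.Quad Cfsg.Agent.LargeExtra.Base Cfsg.Agent.H822.Bridge

variable {n : ℕ}

/-- `core_eq` for `n = 1` as well -/
theorem core_eq' (hn : 1 ≤ n) : (Cfsg.pCore 2 ↥(CC n)).map (CC n).subtype = QQ n := by
  by_cases h2 : 2 ≤ n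
  · exact core_eq h2
  · obtain rfl : n = 1 := by omega
    -- `C = Q`
    have hC : CC 1 = QQ 1 := by
      apply le_antisymm
      · intro g hg
        obtain ⟨h, x, y, c, rfl⟩ := mem_CC.1 hg
        have hh : h = 1 := by
          ext i j
          have hi : i = 0 := Subsingleton.elim _ _
          have hj : j = 0 := Subsingleton.elim _ _
          subst hi hj
          have hd := h.2
          rw [Matrix.det_fin_one] at hd
          rw [Matrix.SpecialLinearGroup.coe_one, Matrix.one_apply_eq]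
          exact hd
        subst hh
        exact ⟨_, _, _, rfl⟩
      · intro g hg
        exact Subgroup.mem_centralizer_singleton_iff.2 ((large 1).comm_z g hg)
    have h2 : IsPGroup 2 (CC 1) := by rw [hC]; exact isPGroup (large 1)
    have h3 : Cfsg.pCore 2 ↥(CC 1) = ⊤ := (Cfsg.Agent.Lib.Cores.pCore_eq_top_iff 2).2 h2
    rw [h3, ← MonoidHom.range_eq_map, Subgroup.range_subtype, hC]

namespace Hol

variable {G : Type*} [Group G] {U M : Subgroup G} {z : G} (H : Hol U M n z)

include H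

/-- preimage of a subgroup of `SL` -/
noncomputable def pre (X : Subgroup (SL (n + 2))) : Subgroup G := X.comap H.phi

theorem mem_pre {X : Subgroup (SL (n + 2))} {g : G} : g ∈ H.pre X ↔ H.phi g ∈ X := Iff.rfl

theorem phi_z_iff {g : G} : g * z = z * g ↔ H.phi g * zz n = zz n * H.phi g := by
  rw [← H.phi_z, ← map_mul, ← map_mul]
  exact ⟨fun h => by rw [h], fun h => H.phi_injective h⟩

theorem pre_CC : H.pre (CC n) = Subgroup.centralizer ({z} : Set G) := by
  ext g
  rw [H.mem_pre, Subgroup.mem_centralizer_singleton_iff, Subgroup.mem_centralizer_singleton_iff, H.phi_z_iff]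

theorem QQ_le : QQ n ≤ CC n := fun g hg =>
  Subgroup.mem_centralizer_singleton_iff.2 ((large n).comm_z g hg)

/-- elements of `CC n` come from `G` -/
theorem exists_pre {s : SL (n + 2)} (hs : s ∈ CC n) : ∃ g : G, H.phi g = s := H.CC_le hs

theorem card_pre {X : Subgroup (SL (n + 2))} (hX : X ≤ CC n) : Nat.card (H.pre X) = Nat.card X := by
  refine Nat.card_congr (Equiv.ofBijective (fun g => ⟨H.phi g, g.2⟩) ⟨?_, ?_⟩)
  · intro a b hab
    exact Subtype.ext (H.phi_injective (congrArg Subtype.val hab))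
  · rintro ⟨s, hs⟩
    obtain ⟨g, rfl⟩ := H.exists_pre (hX hs)
    exact ⟨⟨g, hs⟩, rfl⟩

theorem large : Large (H.pre (QQ n)) z := by
  have hL := SLTrans.large n
  have inj := H.phi_injective
  refine ⟨?_, ?_, ?_, ?_, ?_, ?_, ?_, ?_, ?_⟩
  · rw [H.mem_pre, H.phi_z]; exact hL.z_mem
  · intro h
    apply hL.z_ne
    have h1 : H.phi z = H.phi 1 := congrArg _ h
    rw [← H.phi_z, h1, map_one]
  · apply inj
    rw [map_mul, H.phi_z, map_one]; exact hL.z_sq
  · intro x hx
    rw [H.phi_z_iff]; exact hL.comm_z _ hx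
  · intro g hg x hx
    rw [H.mem_pre, map_mul, map_mul, map_inv]
    exact hL.conj_mem _ (H.phi_z_iff.1 hg) _ hx
  · intro x hx
    rcases hL.sq _ hx with h | h
    · left; apply inj; rw [map_mul, h, map_one]
    · right; apply inj; rw [map_mul, h, H.phi_z]
  · intro x hx y hy
    rcases hL.comm _ hx _ hy with h | h
    · left; apply inj; rw [map_mul, map_mul, h]
    · right; apply inj; rw [map_mul, map_mul, map_mul, h, H.phi_z]
  · intro x hx hc
    rcases hL.cent _ hx (fun y hy => by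
      obtain ⟨y', rfl⟩ := H.exists_pre (QQ_le H hy)
      rw [← map_mul, ← map_mul, hc y' hy]) with h | h
    · left; apply inj; rw [h, map_one]
    · right; apply inj; rw [h, H.phi_z]
  · intro g hg hc
    refine hL.self _ (H.phi_z_iff.1 hg) fun y hy => ?_
    obtain ⟨y', rfl⟩ := H.exists_pre (QQ_le H hy)
    rw [← map_mul, ← map_mul, hc y' hy]

/-- `C_G(z) ≃* CC n` -/
noncomputable def cEquiv : ↥(Subgroup.centralizer ({z} : Set G)) ≃* ↥(CC n) :=
  MulEquiv.ofBijective
    (MonoidHom.mk' (fun g : ↥(Subgroup.centralizer ({z} : Set G)) => (⟨H.phi (g : G), Subgroup.mem_centralizer_singleton_iff.2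
      (H.phi_z_iff.1 (Subgroup.mem_centralizer_singleton_iff.1 g.2))⟩ : ↥(CC n)))
      (fun a b => Subtype.ext (map_mul H.phi (a : G) (b : G))))
    (by
      constructor
      · intro a b hab
        exact Subtype.ext (H.phi_injective (congrArg Subtype.val hab))
      · rintro ⟨s, hs⟩
        obtain ⟨g, rfl⟩ := H.exists_pre hs
        exact ⟨⟨g, Subgroup.mem_centralizer_singleton_iff.2
          (H.phi_z_iff.2 (Subgroup.mem_centralizer_singleton_iff.1 hs))⟩, rfl⟩)

theorem cEquiv_coe (g : ↥(Subgroup.centralizer ({z} : Set G))) : (H.cEquiv g : SL (n + 2)) = H.phi g := rfl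

theorem core_pre (hn : 1 ≤ n) : (Cfsg.pCore 2 ↥(Subgroup.centralizer ({z} : Set G))).map
    (Subgroup.centralizer ({z} : Set G)).subtype = H.pre (QQ n) := by
  have h1 := Cfsg.Agent.Lib.Cores.map_equiv_pCore H.cEquiv 2
  have h2 := core_eq' hn
  ext g
  rw [H.mem_pre, ← h2]
  constructor
  · rintro ⟨c, hc, rfl⟩
    refine ⟨H.cEquiv c, ?_, rfl⟩
    rw [← h1]; exact ⟨c, hc, rfl⟩
  · rintro ⟨s, hs, hs'⟩
    rw [← h1] at hs
    obtain ⟨c, hc, rfl⟩ := hs
    refine ⟨c, hc, ?_⟩
    apply H.phi_injective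
    exact hs'

/-- complement -/
theorem compl : H.pre (KK n) ≤ Subgroup.centralizer ({z} : Set G) ∧ H.pre (QQ n) ⊓ H.pre (KK n) = ⊥ ∧
    H.pre (QQ n) ⊔ H.pre (KK n) = Subgroup.centralizer ({z} : Set G) := by
  have hK : H.pre (KK n) ≤ Subgroup.centralizer ({z} : Set G) := by
    rw [← H.pre_CC]; exact Subgroup.comap_mono KK_le
  refine ⟨hK, ?_, ?_⟩
  · rw [eq_bot_iff]
    rintro g ⟨h1, h2⟩
    have h3 : H.phi g ∈ QQ n ⊓ KK n := ⟨h1, h2⟩
    rw [SLTrans.inf_eq, Subgroup.mem_bot] at h3
    rw [Subgroup.mem_bot]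
    exact H.phi_injective (h3.trans (map_one _).symm)
  · apply le_antisymm
    · refine sup_le ?_ hK
      rw [← H.pre_CC]; exact Subgroup.comap_mono (QQ_le H)
    · intro g hg
      rw [← H.pre_CC, H.mem_pre] at hg
      obtain ⟨h, x, y, c, hh⟩ := mem_CC.1 hg
      rw [El_eq] at hh
      have k1 : lev h ∈ KK n := ⟨h, rfl⟩
      obtain ⟨a, ha⟩ := H.exists_pre (KK_le k1)
      have k2 : El 1 x ((h⁻¹ : SL n) *ᵥ y : Fin n → F) c ∈ QQ n := ⟨_, _, _, rfl⟩
      obtain ⟨b, hb⟩ := H.exists_pre (QQ_le H k2)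
      have h5 : g = a * b := by
        apply H.phi_injective
        rw [hh, map_mul, ha, hb]
      rw [h5]
      refine mul_mem (Subgroup.mem_sup_right ?_) (Subgroup.mem_sup_left ?_)
      · rw [H.mem_pre, ha]; exact k1
      · rw [H.mem_pre, hb]; exact k2

noncomputable def kPreEquiv : ↥(H.pre (KK n)) ≃* ↥(KK n) :=
  MulEquiv.ofBijective
    (MonoidHom.mk' (fun g : ↥(H.pre (KK n)) => (⟨H.phi (g : G), g.2⟩ : ↥(KK n))) (fun a b => Subtype.ext (map_mul H.phi (a : G) (b : G))))
    (by
      constructor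
      · intro a b hab
        exact Subtype.ext (H.phi_injective (congrArg Subtype.val hab))
      · rintro ⟨s, hs⟩
        obtain ⟨g, rfl⟩ := H.exists_pre (KK_le hs)
        exact ⟨⟨g, hs⟩, rfl⟩)

/-- `U ≤ Q` -/
theorem U_le (hn : 1 ≤ n) (hU2 : ∀ u ∈ U, u ^ 2 = 1) : U ≤ H.pre (QQ n) := by
  have hUC : U ≤ Subgroup.centralizer ({z} : Set G) := fun u hu =>
    Subgroup.mem_centralizer_singleton_iff.2 (H.comm u hu z H.hz)
  have hn' := H.nU
  have hN : (U.subgroupOf (Subgroup.centralizer ({z} : Set G))).Normal := inferInstance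
  have h2 : IsPGroup 2 U := fun u => ⟨1, by
    apply Subtype.ext
    show (u : G) ^ (2 ^ 1) = 1
    rw [pow_one]; exact hU2 u u.2⟩
  have h3 := Cfsg.Agent.Lib.Cores.le_pCore hN (h2.comap_subtype)
  intro u hu
  rw [← H.core_pre hn]
  exact ⟨⟨u, hUC hu⟩, h3 (Subgroup.mem_subgroupOf.2 hu), rfl⟩

theorem large_sub [Finite G] (hn : 1 ≤ n) (hU2 : ∀ u ∈ U, u ^ 2 = 1) (hcard : Nat.card U = 2 ^ (n + 1)) :
    Cfsg.IsLargeExtraspecial (H.pre (QQ n)) := by
  have hL := H.large
  -- another element of `U`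
  obtain ⟨b, hbU, hb1, hbz⟩ : ∃ b ∈ U, b ≠ 1 ∧ b ≠ z := by
    by_contra hcon
    push Not at hcon
    have h1 : Nat.card U ≤ 2 := by
      have h3 : Nat.card U ≤ Nat.card (({1, z} : Set G)) := by
        refine Nat.card_le_card_of_injective
          (fun x : U => (⟨x, by
            by_cases h : (x : G) = 1
            · simp [h]
            · have := hcon x x.2 h; simp [this]⟩ : ({1, z} : Set G))) ?_
        intro x y hxy
        have hxy' := congrArg (fun t : (({1, z} : Set G)) => (t : G)) hxy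
        exact Subtype.ext hxy'
      have h4 : Nat.card (({1, z} : Set G)) = 2 := by
        rw [Nat.card_coe_set_eq, Set.ncard_pair hL.z_ne.symm]
      omega
    rw [hcard] at h1
    have h3 : 2 ^ 2 ≤ 2 ^ (n + 1) := Nat.pow_le_pow_right (by norm_num) (by omega)
    omega
  have h2 : IsPGroup 2 U := fun u => ⟨1, by
    apply Subtype.ext
    show (u : G) ^ (2 ^ 1) = 1
    rw [pow_one]; exact hU2 u u.2⟩
  exact isLarge_of_core hL (H.U_le hn hU2 hbU) hb1 hbz h2 H.hz
    (fun g _ x hx => H.nU.conj_mem x hx g) (by rw [← pow_two]; exact hU2 b hbU)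

end Hol

/-- over the field with two elements `SL = GL` -/
noncomputable def slEquivGl (n : ℕ) : SL n ≃* Matrix.GeneralLinearGroup (Fin n) F :=
  MulEquiv.ofBijective Matrix.SpecialLinearGroup.toGL (by
    constructor
    · exact Matrix.SpecialLinearGroup.toGL_injective
    · intro g
      refine ⟨⟨g.1, ?_⟩, ?_⟩
      · apply eq_one_of_ne
        intro h
        have h1 : (g.1 * g.2).det = 1 := by rw [g.3, Matrix.det_one]
        rw [Matrix.det_mul, h, zero_mul] at h1
        exact zero_ne_one h1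
      · apply Units.ext
        rfl)

end Cfsg.Agent.H822.Aff
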