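import Cfsg.Agent.H822.Structure
import Cfsg.Agent.Solvable.Glauberman

/-!
# Large extraspecial subgroups and odd-order operator groups (helper822)

* `exists_conj_fixed`: `A` of odd order centralising `z`, `x ∈ C_Q(A)` noncentral: some `c ∈ C_Q(A)` has `x^c = x z`.
* `large_quot`: the image of `C_Q(A)` in `C_G(A) A / A` is `Large`.
-/

set_option autoImplicit false
set_option linter.unusedSectionVars false

namespace Cfsg.Agent.H822.Quot

open Cfsg Cfsg.Agent.Co2Type.Quad Cfsg.Agent.LargeExtra.Base Cfsg.Agent.H822.Bridge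
open Cfsg.Agent.H822.Structure

/-- `G` with the conjugation action of `G` -/
def Cj (G : Type*) := G

instance instCj (G : Type*) [Group G] : MulAction G (Cj G) where
  smul g x := (g * (show G from x) * g⁻¹ : G)
  one_smul x := by
    show (1 : G) * (show G from x) * (1 : G)⁻¹ = (show G from x)
    rw [inv_one, mul_one, one_mul]
  mul_smul g h x := by
    have key : ∀ y : G, (g * h) * y * (g * h)⁻¹ = g * (h * y * h⁻¹) * g⁻¹ := fun y => by group
    exact key x

theorem exists_conj_general {G : Type*} [Group G] [Finite G] (A K : Subgroup G)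
    (hAK : A ≤ Subgroup.normalizer (K : Set G)) (hcop : (Nat.card A).Coprime (Nat.card K))
    (hsolv : Group.IsSolvable K) (x y : G) (hx : ∀ a ∈ A, a * x * a⁻¹ = x)
    (hy : ∀ a ∈ A, a * y * a⁻¹ = y) {k : G} (hk : k ∈ K) (hkx : k * x * k⁻¹ = y) :
    ∃ c ∈ K, c ∈ Subgroup.centralizer (A : Set G) ∧ c * x * c⁻¹ = y :=
  Cfsg.Agent.Solvable.Glauberman.exists_centralizer_smul (X := Cj G) A K hAK hcop (Or.inr hsolv)
    (show Cj G from x) (show Cj G from y) hx hy hk hkx

variable {G : Type*} [Group G] [Finite G] {Q : Subgroup G} {z : G}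

theorem normalizes {g : G} (h : Large Q z) (hg : g * z = z * g) : g ∈ Subgroup.normalizer (Q : Set G) :=
  centralizer_center_le h (Subgroup.mem_centralizer_iff.2 fun y hy => by
    rcases (center_eq h).1 hy with h3 | h3
    · rw [h3, one_mul, mul_one]
    · rw [h3]; exact hg.symm)

theorem coprime_card (h : Large Q z) {A : Subgroup G} (hA : Odd (Nat.card A)) :
    (Nat.card A).Coprime (Nat.card Q) := by
  have : Fact (Nat.Prime 2) := ⟨Nat.prime_two⟩
  obtain ⟨n, hn⟩ := (isPGroup h).exists_card_eq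
  rw [hn]
  exact Nat.Coprime.pow_right _ (Nat.coprime_two_right.2 hA)

theorem exists_conj_fixed (h : Large Q z) {A : Subgroup G} (hA : Odd (Nat.card A))
    (hAz : ∀ a ∈ A, a * z = z * a) {x : G} (hx : x ∈ Q) (hxA : ∀ a ∈ A, a * x = x * a) (hx1 : x ≠ 1)
    (hxz : x ≠ z) : ∃ c ∈ Q, c ∈ Subgroup.centralizer (A : Set G) ∧ c * x * c⁻¹ = x * z := by
  have hs : Group.IsSolvable Q := by
    have : Fact (Nat.Prime 2) := ⟨Nat.prime_two⟩
    have := (isPGroup h).isNilpotent
    infer_instance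
  obtain ⟨y, hy, hyx⟩ := exists_not_comm h hx hx1 hxz
  refine exists_conj_general A Q (fun a ha => normalizes h (hAz a ha)) (coprime_card h hA) hs x (x * z)
    ?_ ?_ hy ?_
  · intro a ha; rw [hxA a ha]; group
  · intro a ha
    calc a * (x * z) * a⁻¹ = (a * x) * z * a⁻¹ := by group
      _ = x * (a * z) * a⁻¹ := by rw [hxA a ha]; group
      _ = x * (z * a) * a⁻¹ := by rw [hAz a ha]
      _ = x * z := by group
  · rw [hyx, mul_assoc x y z, h.comm_z y hy, ← mul_assoc, mul_inv_cancel_right]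

/-- an element of odd-order `A` whose 4th power (or square) is 1 is 1 -/
theorem eq_one_of_pow {A : Subgroup G} (hA : Odd (Nat.card A)) {a : G} (ha : a ∈ A) {n : ℕ}
    (h : a ^ (2 ^ n) = 1) : a = 1 := by
  have h4 : orderOf a ∣ 2 ^ n := orderOf_dvd_of_pow_eq_one h
  have h5 : orderOf a ∣ Nat.card A := by
    have := orderOf_dvd_natCard (⟨a, ha⟩ : A)
    rwa [Subgroup.orderOf_mk] at this
  have h6 : (2 ^ n).Coprime (Nat.card A) := Nat.Coprime.pow_left _ (Nat.coprime_two_left.2 hA)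
  exact orderOf_eq_one_iff.1 (Nat.eq_one_of_dvd_coprimes h6 h4 h5)

/-- if `m t m⁻¹ t⁻¹ ∈ A` (odd order, centralised by `t`), `t` a 2-element normalising, then `m t = t m` -/
theorem comm_of_commutator {A : Subgroup G} (hA : Odd (Nat.card A)) {m t : G} {n : ℕ} (ht : t ^ (2 ^ n) = 1)
    (htA : ∀ a ∈ A, a * t = t * a) (h : m * t * m⁻¹ * t⁻¹ ∈ A) : m * t = t * m := by
  set a := m * t * m⁻¹ * t⁻¹ with ha
  have h1 : m * t * m⁻¹ = a * t := by rw [ha]; group
  have h2 : (a * t) ^ (2 ^ n) = 1 := by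
    rw [← h1, conj_pow, ht]; group
  have hc : Commute a t := htA a h
  rw [hc.mul_pow, ht, mul_one] at h2
  have h3 := eq_one_of_pow hA h h2
  rw [h3, one_mul] at h1
  calc m * t = (m * t * m⁻¹) * m := by group
    _ = t * m := by rw [h1]

theorem pow_four_eq (h : Large Q z) {x : G} (hx : x ∈ Q) : x ^ (2 ^ 2) = 1 := by
  have e : x ^ (2 ^ 2) = (x * x) * (x * x) := by
    rw [show (2 ^ 2 : ℕ) = 2 * 2 from rfl, pow_mul, pow_two, pow_two]
  rw [e]
  rcases h.sq x hx with h1 | h1 <;> rw [h1]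
  · rw [one_mul]
  · exact h.z_sq

/-- `M = C_G(A) A` normalises `A` and `C_G(A)` -/
theorem sup_normalizes {A : Subgroup G} {m : G} (hm : m ∈ Subgroup.centralizer (A : Set G) ⊔ A) :
    m ∈ Subgroup.normalizer (A : Set G) := by
  have h1 : Subgroup.centralizer (A : Set G) ⊔ A ≤ Subgroup.normalizer (A : Set G) :=
    sup_le (Subgroup.centralizer_le_normalizer _) Subgroup.le_normalizer
  exact h1 hm

theorem conj_mem_centralizer {A : Subgroup G} {m x : G} (hm : m ∈ Subgroup.normalizer (A : Set G))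
    (hx : x ∈ Subgroup.centralizer (A : Set G)) : m * x * m⁻¹ ∈ Subgroup.centralizer (A : Set G) := by
  rw [Subgroup.mem_centralizer_iff] at hx ⊢
  intro a ha
  have h1 : m⁻¹ * a * m ∈ A := by
    have := (Subgroup.mem_normalizer_iff.1 (inv_mem hm) a).1 ha
    rwa [inv_inv] at this
  have h2 := hx _ h1
  calc a * (m * x * m⁻¹) = m * ((m⁻¹ * a * m) * x) * m⁻¹ := by group
    _ = m * (x * (m⁻¹ * a * m)) * m⁻¹ := by rw [h2]
    _ = m * x * m⁻¹ * a := by group

section quot

variable {A M : Subgroup G} [hn : (A.subgroupOf M).Normal]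

/-- the class of an element of `M` -/
def cl (A M : Subgroup G) [(A.subgroupOf M).Normal] (x : M) : M ⧸ A.subgroupOf M := QuotientGroup.mk x

theorem cl_mul (x y : M) : cl A M (x * y) = cl A M x * cl A M y := rfl

theorem cl_one : cl A M 1 = 1 := rfl

theorem cl_inv (x : M) : cl A M x⁻¹ = (cl A M x)⁻¹ := rfl

theorem cl_eq_one {x : M} : cl A M x = 1 ↔ (x : G) ∈ A := by
  unfold cl
  rw [QuotientGroup.eq_one_iff, Subgroup.mem_subgroupOf]

theorem cl_eq {x y : M} : cl A M x = cl A M y ↔ (x : G) * (y : G)⁻¹ ∈ A := by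
  rw [← mul_inv_eq_one, ← cl_inv, ← cl_mul, cl_eq_one]
  rfl

theorem cl_surj (x : M ⧸ A.subgroupOf M) : ∃ m : M, cl A M m = x := QuotientGroup.mk_surjective x

/-- the image of a subgroup of `G` in `M / A` -/
def im (A M : Subgroup G) [(A.subgroupOf M).Normal] (R : Subgroup G) : Subgroup (M ⧸ A.subgroupOf M) :=
  (R.subgroupOf M).map (QuotientGroup.mk' (A.subgroupOf M))

theorem mem_im {R : Subgroup G} {x : M ⧸ A.subgroupOf M} :
    x ∈ im A M R ↔ ∃ m : M, (m : G) ∈ R ∧ cl A M m = x := by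
  unfold im
  rw [Subgroup.mem_map]
  constructor
  · rintro ⟨m, hm, rfl⟩
    exact ⟨m, hm, rfl⟩
  · rintro ⟨m, hm, rfl⟩
    exact ⟨m, hm, rfl⟩

theorem im_two {R : Subgroup G} (hR : IsPGroup 2 R) : IsPGroup 2 (im A M R) := by
  unfold im
  exact (hR.comap_subtype).map _

theorem odd_ne (hA : Odd (Nat.card A)) {x : G} (hx : x * x = 1) (hxA : x ∈ A) : x = 1 := by
  refine eq_one_of_pow hA hxA (n := 1) ?_
  rw [pow_one, pow_two, hx]

/-- normaliser-type statement: an element of `M/A` commuting with the class of `t ∈ C(A)`, `t` a 2-element,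
lifts to elements commuting with `t`. -/
theorem lift_comm (hA : Odd (Nat.card A)) {m t : M} {n : ℕ} (ht : (t : G) ^ (2 ^ n) = 1)
    (htA : ∀ a ∈ A, a * (t : G) = t * a) (h : cl A M m * cl A M t = cl A M t * cl A M m) :
    (m : G) * t = t * m := by
  apply comm_of_commutator hA ht htA
  rw [← cl_mul, ← cl_mul, cl_eq] at h
  have e : ((m * t : M) : G) * ((t * m : M) : G)⁻¹ = (m : G) * t * (m : G)⁻¹ * (t : G)⁻¹ := by
    show (m : G) * t * ((t : G) * m)⁻¹ = _
    group
  rwa [e] at h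

theorem large_quot (h : Large Q z) (hAz : ∀ a ∈ A, a * z = z * a) (hA : Odd (Nat.card A))
    (hM : M = Subgroup.centralizer (A : Set G) ⊔ A) (hzM : z ∈ M)
    (hX : ∀ c : G, c ∈ Subgroup.centralizer (A : Set G) →
      (∀ r ∈ Q ⊓ Subgroup.centralizer (A : Set G), c * r = r * c) → c ∈ A ∨ c * z ∈ A) :
    Large (im A M (Q ⊓ Subgroup.centralizer (A : Set G))) (cl A M ⟨z, hzM⟩) := by
  set CA := Subgroup.centralizer (A : Set G) with hCA
  have hCM : CA ≤ M := by rw [hM]; exact le_sup_left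
  have hAM : A ≤ M := by rw [hM]; exact le_sup_right
  have hMn : ∀ m ∈ M, m ∈ Subgroup.normalizer (A : Set G) := fun m hm => by
    rw [hM] at hm; exact sup_normalizes hm
  have hzC : z ∈ CA := by
    rw [hCA, Subgroup.mem_centralizer_iff]; exact hAz
  have hQA : ∀ x ∈ Q, x ∈ A → x = 1 := fun x hx hxA =>
    eq_one_of_pow hA hxA (n := 2) (pow_four_eq h hx)
  refine ⟨?_, ?_, ?_, ?_, ?_, ?_, ?_, ?_, ?_⟩
  · exact mem_im.2 ⟨⟨z, hzM⟩, ⟨h.z_mem, hzC⟩, rfl⟩
  · intro h1
    exact h.z_ne (hQA z h.z_mem (cl_eq_one.1 h1))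
  · rw [← cl_mul, cl_eq_one]
    show z * z ∈ A
    rw [h.z_sq]; exact one_mem A
  · intro x hx
    obtain ⟨m, hm, rfl⟩ := mem_im.1 hx
    rw [← cl_mul, ← cl_mul]
    congr 1
    exact Subtype.ext (h.comm_z _ hm.1)
  · intro g hg x hx
    obtain ⟨m, rfl⟩ := cl_surj g
    obtain ⟨r, hr, rfl⟩ := mem_im.1 hx
    have h1 : (m : G) * z = z * m :=
      lift_comm (t := ⟨z, hzM⟩) (n := 1) hA (by rw [pow_one, pow_two]; exact h.z_sq) hAz hg
    refine mem_im.2 ⟨m * r * m⁻¹, ⟨h.conj_mem m h1 _ hr.1, ?_⟩, rfl⟩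
    exact conj_mem_centralizer (hMn m m.2) hr.2
  · intro x hx
    obtain ⟨m, hm, rfl⟩ := mem_im.1 hx
    rcases h.sq _ hm.1 with h1 | h1
    · left
      rw [← cl_mul, cl_eq_one]
      show (m : G) * m ∈ A
      rw [h1]; exact one_mem A
    · right
      rw [← cl_mul]
      congr 1
      exact Subtype.ext h1
  · intro x hx y hy
    obtain ⟨m, hm, rfl⟩ := mem_im.1 hx
    obtain ⟨k, hk, rfl⟩ := mem_im.1 hy
    rcases h.comm _ hm.1 _ hk.1 with h1 | h1
    · left
      rw [← cl_mul, ← cl_mul]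
      congr 1
      exact Subtype.ext h1
    · right
      rw [← cl_mul, ← cl_mul, ← cl_mul]
      congr 1
      exact Subtype.ext h1
  · intro x hx hc
    obtain ⟨m, hm, rfl⟩ := mem_im.1 hx
    by_cases h1 : (m : G) = 1
    · left
      rw [cl_eq_one, h1]; exact one_mem A
    by_cases h2 : (m : G) = z
    · right
      congr 1
      exact Subtype.ext h2
    exfalso
    have hmA : ∀ a ∈ A, a * (m : G) = m * a := fun a ha => Subgroup.mem_centralizer_iff.1 hm.2 a ha
    obtain ⟨c, hcQ, hcA, hcm⟩ := exists_conj_fixed h hA hAz hm.1 hmA h1 h2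
    have h3 := hc (cl A M ⟨c, hCM hcA⟩) (mem_im.2 ⟨⟨c, hCM hcA⟩, ⟨hcQ, hcA⟩, rfl⟩)
    have h4 := lift_comm (t := ⟨c, hCM hcA⟩) (n := 2) hA (pow_four_eq h hcQ)
      (fun a ha => Subgroup.mem_centralizer_iff.1 hcA a ha) h3
    have h4' : (m : G) * c = c * m := h4
    rw [← h4', mul_inv_cancel_right] at hcm
    exact h.z_ne (by simpa using hcm)
  · intro g hg hc
    obtain ⟨m, rfl⟩ := cl_surj g
    -- write `m = c a`
    have hmM : (m : G) ∈ CA ⊔ A := by rw [← hM]; exact m.2
    obtain ⟨a, ha, c, hcA, hmc⟩ := Cfsg.Agent.Solvable.Glauberman.exists_mul_of_mem_sup CA A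
      (Subgroup.centralizer_le_normalizer _) hmM
    have hmcl : cl A M m = cl A M ⟨c, hCM hcA⟩ := by
      rw [cl_eq]
      show (m : G) * c⁻¹ ∈ A
      rw [hmc, mul_inv_cancel_right]; exact ha
    rw [hmcl] at hc ⊢
    have h1 : ∀ r ∈ Q ⊓ CA, c * r = r * c := by
      intro r hr
      have h3 := hc (cl A M ⟨r, hCM hr.2⟩) (mem_im.2 ⟨⟨r, hCM hr.2⟩, hr, rfl⟩)
      exact lift_comm (m := ⟨c, hCM hcA⟩) (t := ⟨r, hCM hr.2⟩) (n := 2) hA (pow_four_eq h hr.1)
        (fun a ha => Subgroup.mem_centralizer_iff.1 hr.2 a ha) h3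
    rcases hX c hcA h1 with h2 | h2
    · have h3 : cl A M ⟨c, hCM hcA⟩ = 1 := cl_eq_one.2 h2
      rw [h3]; exact one_mem _
    · have h3 : cl A M ⟨c, hCM hcA⟩ = cl A M ⟨z, hzM⟩ := by
        rw [cl_eq]
        show c * z⁻¹ ∈ A
        rw [h.z_inv]; exact h2
      rw [h3]
      exact mem_im.2 ⟨⟨z, hzM⟩, ⟨h.z_mem, hzC⟩, rfl⟩

end quot

/-- the structure of `X = C_G(A R)`: `|X| = 2·odd`, `z ∈ X` central. -/
theorem central_two {X : Type*} [Group X] [Finite X] (w : X) (hw1 : w ≠ 1) (hww : w * w = 1)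
    (hwc : ∀ x : X, x * w = w * x) (h4 : ¬ 4 ∣ Nat.card X) (x : X) :
    x ∈ oddCore X ∨ x * w ∈ oddCore X := by
  have : Fact (Nat.Prime 2) := ⟨Nat.prime_two⟩
  set W := Subgroup.zpowers w with hW
  have hWn : W.Normal := by
    refine ⟨fun n hn g => ?_⟩
    rcases (mem_zpowers_iff_of_sq hww).1 hn with h | h
    · rw [h, mul_one, mul_inv_cancel]; exact one_mem _
    · rw [h, hwc g, mul_inv_cancel_right]; exact Subgroup.mem_zpowers w
  have hWc : Nat.card W = 2 := by
    rw [Nat.card_zpowers]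
    exact orderOf_eq_prime (by rw [pow_two]; exact hww) hw1
  have hidx : Odd W.index := by
    rw [← Nat.not_even_iff_odd]
    intro he
    apply h4
    have h1 := W.card_mul_index
    rw [hWc] at h1
    rw [← h1]
    obtain ⟨k, hk⟩ := he.two_dvd
    rw [hk]
    exact ⟨k, by ring⟩
  have hcop : (Nat.card W).Coprime W.index := by
    rw [hWc]; exact Nat.coprime_two_left.2 hidx
  obtain ⟨H, hH⟩ := Subgroup.exists_right_complement'_of_coprime hcop
  -- `H` is normal of odd order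
  have hHcard : Nat.card H = W.index := hH.symm.index_eq_card.symm ▸ rfl
  have key : ∀ x : X, x ∈ H ∨ x * w ∈ H := by
    intro x
    have h1 := hH.sup_eq_top
    have hx : x ∈ W ⊔ H := by rw [h1]; trivial
    rw [Subgroup.mem_sup_of_normal_left] at hx
    obtain ⟨y, hy, k, hk, rfl⟩ := hx
    rcases (mem_zpowers_iff_of_sq hww).1 hy with h | h
    · left; rw [h, one_mul]; exact hk
    · right
      rw [h, mul_assoc, hwc k, ← mul_assoc, hww, one_mul]; exact hk
  have hHn : H.Normal := by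
    refine ⟨fun n hn g => ?_⟩
    rcases key g with h | h
    · exact mul_mem (mul_mem h hn) (inv_mem h)
    · have h2 : g * n * g⁻¹ = (g * w) * n * (g * w)⁻¹ := by
        rw [mul_inv_rev, mul_assoc g w n, ← hwc n]; group
      rw [h2]
      exact mul_mem (mul_mem h hn) (inv_mem h)
  have hHle : H ≤ oddCore X := by
    refine Cfsg.Agent.Lib.Cores.le_pPrimeCore hHn ?_
    rw [hHcard]
    exact Nat.coprime_two_right.2 hidx
  rcases key x with h | h
  · left; exact hHle h
  · right; exact hHle h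

end Cfsg.Agent.H822.Quot
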