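import Mathlib

/-!
# The centraliser of a transvection in `SL_{n+2}(2)` (helper822)

Coordinates: `el h x y c` is the matrix with rows `(1, c, x)`, `(0, 1, 0)`, `(0, y_i, h_i)`.
-/

set_option autoImplicit false

namespace Cfsg.Agent.H822.SLTrans

open Matrix

abbrev F := ZMod 2

theorem eq_one_of_ne {t : F} (h : t ≠ 0) : t = 1 := by revert t; decide

variable {n : ℕ}

/-- the matrix with rows `(1, c, x)`, `(0, 1, 0)`, `(0, y_i, h_i)` -/
def el (h : Matrix (Fin n) (Fin n) F) (x y : Fin n → F) (c : F) : Matrix (Fin (n + 2)) (Fin (n + 2)) F :=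
  Matrix.of (Fin.cons (Fin.cons 1 (Fin.cons c x)) (Fin.cons (Fin.cons 0 (Fin.cons 1 0))
    (fun i => Fin.cons 0 (Fin.cons (y i) (h i)))))

section entries

variable (h : Matrix (Fin n) (Fin n) F) (x y : Fin n → F) (c : F)

theorem el00 : el h x y c 0 0 = 1 := rfl
theorem el01 : el h x y c 0 1 = c := rfl
theorem el02 (j : Fin n) : el h x y c 0 j.succ.succ = x j := rfl
theorem el10 : el h x y c 1 0 = 0 := rfl
theorem el11 : el h x y c 1 1 = 1 := rfl
theorem el12 (j : Fin n) : el h x y c 1 j.succ.succ = 0 := rfl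
theorem el20 (i : Fin n) : el h x y c i.succ.succ 0 = 0 := rfl
theorem el21 (i : Fin n) : el h x y c i.succ.succ 1 = y i := rfl
theorem el22 (i j : Fin n) : el h x y c i.succ.succ j.succ.succ = h i j := rfl

end entries

theorem ext9 {A B : Matrix (Fin (n + 2)) (Fin (n + 2)) F} (h00 : A 0 0 = B 0 0) (h01 : A 0 1 = B 0 1)
    (h02 : ∀ j : Fin n, A 0 j.succ.succ = B 0 j.succ.succ) (h10 : A 1 0 = B 1 0) (h11 : A 1 1 = B 1 1)
    (h12 : ∀ j : Fin n, A 1 j.succ.succ = B 1 j.succ.succ) (h20 : ∀ i : Fin n, A i.succ.succ 0 = B i.succ.succ 0)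
    (h21 : ∀ i : Fin n, A i.succ.succ 1 = B i.succ.succ 1)
    (h22 : ∀ i j : Fin n, A i.succ.succ j.succ.succ = B i.succ.succ j.succ.succ) : A = B := by
  ext i j
  refine Fin.cases ?_ (fun i => Fin.cases ?_ (fun i => ?_) i) i <;>
    refine Fin.cases ?_ (fun j => Fin.cases ?_ (fun j => ?_) j) j
  · exact h00
  · exact h01
  · exact h02 j
  · exact h10
  · exact h11
  · exact h12 j
  · exact h20 i
  · exact h21 i
  · exact h22 i j

theorem sum2 (f : Fin (n + 2) → F) : ∑ i, f i = f 0 + (f 1 + ∑ i : Fin n, f i.succ.succ) := by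
  rw [Fin.sum_univ_succ, Fin.sum_univ_succ]; rfl

theorem el_mul (h h' : Matrix (Fin n) (Fin n) F) (x y x' y' : Fin n → F) (c c' : F) :
    el h x y c * el h' x' y' c' = el (h * h') (x' + x ᵥ* h') (y + h *ᵥ y') (c + c' + x ⬝ᵥ y') := by
  apply ext9
  · rw [Matrix.mul_apply, sum2]
    simp [el00, el01, el02, el10, el20]
  · rw [Matrix.mul_apply, sum2]
    simp only [el00, el01, el02, el11, el21, dotProduct]
    ring
  · intro j
    rw [Matrix.mul_apply, sum2]
    simp only [el00, el01, el02, el12, el22, Pi.add_apply, vecMul, dotProduct]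
    ring
  · rw [Matrix.mul_apply, sum2]
    simp [el00, el10, el11, el12, el20]
  · rw [Matrix.mul_apply, sum2]
    simp [el01, el10, el11, el12, el21]
  · intro j
    rw [Matrix.mul_apply, sum2]
    simp [el02, el10, el11, el12, el22]
  · intro i
    rw [Matrix.mul_apply, sum2]
    simp [el00, el10, el20, el21, el22]
  · intro i
    rw [Matrix.mul_apply, sum2]
    simp only [el01, el11, el20, el21, el22, Pi.add_apply, mulVec, dotProduct]
    ring
  · intro i j
    rw [Matrix.mul_apply, sum2]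
    simp only [el02, el12, el20, el21, el22, Matrix.mul_apply]
    ring

theorem el_one : el (1 : Matrix (Fin n) (Fin n) F) 0 0 0 = 1 := by
  apply ext9
  · rw [el00, Matrix.one_apply_eq]
  · rw [el01, Matrix.one_apply_ne (by simp)]
  · intro j; rw [el02, Matrix.one_apply_ne (Fin.succ_ne_zero _).symm]; rfl
  · rw [el10, Matrix.one_apply_ne (by simp)]
  · rw [el11, Matrix.one_apply_eq]
  · intro j; rw [el12, Matrix.one_apply_ne]; exact fun h => (Fin.succ_ne_zero _ (Fin.succ_injective _ h.symm))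
  · intro i; rw [el20, Matrix.one_apply_ne (Fin.succ_ne_zero _)]
  · intro i; rw [el21, Matrix.one_apply_ne]; · rfl
    exact fun h => (Fin.succ_ne_zero _ (Fin.succ_injective _ h))
  · intro i j
    rw [el22]
    by_cases hij : i = j
    · rw [hij, Matrix.one_apply_eq, Matrix.one_apply_eq]
    · rw [Matrix.one_apply_ne hij, Matrix.one_apply_ne]
      exact fun h => hij (Fin.succ_injective _ (Fin.succ_injective _ h))

theorem det_el (h : Matrix (Fin n) (Fin n) F) (x y : Fin n → F) (c : F) : (el h x y c).det = h.det := by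
  rw [Matrix.det_succ_column_zero, Fin.sum_univ_succ, Finset.sum_eq_zero]
  · rw [el00, add_zero, Fin.val_zero, pow_zero, one_mul, one_mul, Matrix.det_succ_row_zero,
      Fin.sum_univ_succ, Finset.sum_eq_zero]
    · rw [add_zero, Fin.val_zero, pow_zero, one_mul]
      have h1 : (el h x y c).submatrix (Fin.succAbove 0) Fin.succ 0 0 = 1 := rfl
      rw [h1, one_mul]
      rfl
    · intro j _
      have h1 : (el h x y c).submatrix (Fin.succAbove 0) Fin.succ 0 j.succ = 0 := rfl
      rw [h1, mul_zero, zero_mul]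
  · intro i _
    have h1 : el h x y c i.succ 0 = 0 := by
      refine Fin.cases ?_ (fun i => ?_) i <;> rfl
    rw [h1, mul_zero, zero_mul]

theorem el_inj {h h' : Matrix (Fin n) (Fin n) F} {x y x' y' : Fin n → F} {c c' : F} :
    el h x y c = el h' x' y' c' ↔ h = h' ∧ x = x' ∧ y = y' ∧ c = c' := by
  constructor
  · intro H
    refine ⟨?_, ?_, ?_, ?_⟩
    · ext i j
      have := congrFun (congrFun H i.succ.succ) j.succ.succ
      rwa [el22, el22] at this
    · ext j
      have := congrFun (congrFun H 0) j.succ.succ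
      rwa [el02, el02] at this
    · ext i
      have := congrFun (congrFun H i.succ.succ) 1
      rwa [el21, el21] at this
    · have := congrFun (congrFun H 0) 1
      rwa [el01, el01] at this
  · rintro ⟨rfl, rfl, rfl, rfl⟩; rfl

theorem el_transvection : el (1 : Matrix (Fin n) (Fin n) F) 0 0 1 = Matrix.transvection 0 1 1 := by
  rw [Matrix.transvection]
  apply ext9
  · rw [el00]; simp
  · rw [el01]; simp
  · intro j
    rw [el02, Matrix.add_apply, Matrix.one_apply_ne (Fin.succ_ne_zero _).symm, Matrix.single_apply]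
    rw [if_neg]
    · simp
    · rintro ⟨-, h⟩
      exact Fin.succ_ne_zero _ (Fin.succ_injective _ h.symm)
  · rw [el10]; simp
  · rw [el11]; simp
  · intro j
    rw [el12, Matrix.add_apply, Matrix.one_apply_ne, Matrix.single_apply, if_neg]
    · simp
    · rintro ⟨h, -⟩; exact absurd h (by simp)
    · exact fun h => (Fin.succ_ne_zero _ (Fin.succ_injective _ h.symm))
  · intro i
    rw [el20, Matrix.add_apply, Matrix.one_apply_ne (Fin.succ_ne_zero _), Matrix.single_apply, if_neg]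
    · simp
    · rintro ⟨h, -⟩; exact Fin.succ_ne_zero _ h.symm
  · intro i
    rw [el21, Matrix.add_apply, Matrix.one_apply_ne, Matrix.single_apply, if_neg]
    · simp
    · rintro ⟨h, -⟩; exact Fin.succ_ne_zero _ h.symm
    · exact fun h => (Fin.succ_ne_zero _ (Fin.succ_injective _ h))
  · intro i j
    rw [el22, Matrix.add_apply, Matrix.single_apply, if_neg, add_zero]
    · by_cases hij : i = j
      · rw [hij, Matrix.one_apply_eq, Matrix.one_apply_eq]
      · rw [Matrix.one_apply_ne hij, Matrix.one_apply_ne]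
        exact fun h => hij (Fin.succ_injective _ (Fin.succ_injective _ h))
    · rintro ⟨h, -⟩; exact Fin.succ_ne_zero _ h.symm

/-- what commuting with the transvection means -/
theorem exists_el_of_commute {g : Matrix (Fin (n + 2)) (Fin (n + 2)) F} (hdet : g.det = 1)
    (h : g * Matrix.transvection 0 1 1 = Matrix.transvection 0 1 1 * g) :
    ∃ (A : Matrix (Fin n) (Fin n) F) (x y : Fin n → F) (c : F), A.det = 1 ∧ g = el A x y c := by
  have hc : Commute (Matrix.single 0 1 (1 : F)) g := by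
    rw [Matrix.transvection, mul_add, add_mul, mul_one, one_mul] at h
    exact (add_left_cancel h).symm
  have h1 : ∀ a, a ≠ 0 → g a 0 = 0 := fun a ha => Matrix.col_eq_zero_of_commute_single hc ha
  have h2 : ∀ b, b ≠ 1 → g 1 b = 0 := fun b hb => Matrix.row_eq_zero_of_commute_single hc hb
  have h3 : g 0 0 = g 1 1 := Matrix.diag_eq_of_commute_single hc
  have h4 : g 0 0 = 1 := by
    apply eq_one_of_ne
    intro h0
    rw [Matrix.det_eq_zero_of_column_eq_zero 0] at hdet
    · exact zero_ne_one hdet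
    · intro a
      by_cases ha : a = 0
      · rw [ha]; exact h0
      · exact h1 a ha
  have hg : g = el (g.submatrix (fun i => i.succ.succ) (fun j => j.succ.succ)) (fun j => g 0 j.succ.succ)
      (fun i => g i.succ.succ 1) (g 0 1) := by
    apply ext9
    · show g 0 0 = 1
      exact h4
    · rfl
    · intro j; rfl
    · show g 1 0 = 0
      exact h1 1 (by simp)
    · show g 1 1 = 1
      rw [← h3, h4]
    · intro j
      show g 1 j.succ.succ = 0
      exact h2 _ (fun h => (Fin.succ_ne_zero _ (Fin.succ_injective _ h)))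
    · intro i
      show g i.succ.succ 0 = 0
      exact h1 _ (Fin.succ_ne_zero _)
    · intro i; rfl
    · intro i j; rfl
  refine ⟨_, _, _, _, ?_, hg⟩
  rw [hg, det_el] at hdet
  exact hdet

/-! ### group elements -/

abbrev SL (m : ℕ) := Matrix.SpecialLinearGroup (Fin m) F

/-- the group element -/
def El (h : SL n) (x y : Fin n → F) (c : F) : SL (n + 2) :=
  ⟨el h x y c, by rw [det_el]; exact h.2⟩

theorem coe_El (h : SL n) (x y : Fin n → F) (c : F) :
    (El h x y c : Matrix (Fin (n + 2)) (Fin (n + 2)) F) = el h x y c := rfl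

theorem El_mul (h h' : SL n) (x y x' y' : Fin n → F) (c c' : F) :
    El h x y c * El h' x' y' c' = El (h * h') (x' + x ᵥ* (h' : Matrix (Fin n) (Fin n) F))
      (y + (h : Matrix (Fin n) (Fin n) F) *ᵥ y') (c + c' + x ⬝ᵥ y') := by
  apply Subtype.ext
  show el _ _ _ _ * el _ _ _ _ = _
  rw [el_mul]; rfl

theorem El_one : El (1 : SL n) 0 0 0 = 1 := Subtype.ext el_one

theorem El_inj {h h' : SL n} {x y x' y' : Fin n → F} {c c' : F} :
    El h x y c = El h' x' y' c' ↔ h = h' ∧ x = x' ∧ y = y' ∧ c = c' := by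
  constructor
  · intro H
    obtain ⟨h1, h2⟩ := el_inj.1 (congrArg Subtype.val H)
    exact ⟨Subtype.ext h1, h2⟩
  · rintro ⟨rfl, rfl, rfl, rfl⟩; rfl

/-- the transvection -/
def zz (n : ℕ) : SL (n + 2) := El 1 0 0 1

theorem coe_zz : (zz n : Matrix (Fin (n + 2)) (Fin (n + 2)) F) = Matrix.transvection 0 1 1 := el_transvection

theorem comm_iff {g : SL (n + 2)} : g * zz n = zz n * g ↔ ∃ h x y c, g = El h x y c := by
  constructor
  · intro H
    have h1 := congrArg (fun t : SL (n + 2) => (t : Matrix (Fin (n + 2)) (Fin (n + 2)) F)) H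
    simp only [Matrix.SpecialLinearGroup.coe_mul, coe_zz] at h1
    obtain ⟨A, x, y, c, hA, hg⟩ := exists_el_of_commute g.2 h1
    exact ⟨⟨A, hA⟩, x, y, c, Subtype.ext hg⟩
  · rintro ⟨h, x, y, c, rfl⟩
    rw [zz, El_mul, El_mul, El_inj]
    refine ⟨by rw [mul_one, one_mul], ?_, ?_, ?_⟩
    · simp
    · simp
    · simp [add_comm]

theorem add_self_vec (v : Fin n → F) : v + v = 0 := by
  ext i
  have key : ∀ t : F, t + t = 0 := by decide
  exact key (v i)

theorem add_self_F (t : F) : t + t = 0 := by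
  have key : ∀ t : F, t + t = 0 := by decide
  exact key t

/-- multiplication in `Q` -/
theorem q_mul (x y x' y' : Fin n → F) (c c' : F) :
    El (1 : SL n) x y c * El 1 x' y' c' = El 1 (x + x') (y + y') (c + c' + x ⬝ᵥ y') := by
  rw [El_mul, El_inj]
  refine ⟨one_mul 1, ?_, ?_, rfl⟩
  · rw [Matrix.SpecialLinearGroup.coe_one, Matrix.vecMul_one, add_comm]
  · rw [Matrix.SpecialLinearGroup.coe_one, Matrix.one_mulVec]

theorem q_inv (x y : Fin n → F) (c : F) :
    (El (1 : SL n) x y c)⁻¹ = El 1 x y (c + x ⬝ᵥ y) := by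
  apply inv_eq_of_mul_eq_one_left
  rw [q_mul, ← El_one, El_inj]
  refine ⟨rfl, add_self_vec x, add_self_vec y, ?_⟩
  have key : ∀ a b : F, a + b + a + b = 0 := by decide
  exact key c (x ⬝ᵥ y)

/-- the levi factor -/
def lev : SL n →* SL (n + 2) where
  toFun h := El h 0 0 0
  map_one' := El_one
  map_mul' h h' := by
    rw [El_mul, El_inj]
    exact ⟨rfl, by simp, by simp, by simp⟩

theorem lev_apply (h : SL n) : lev h = El h 0 0 0 := rfl

theorem lev_injective : Function.Injective (lev (n := n)) := by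
  intro h h' H
  exact (El_inj.1 H).1

/-- `El h x y c = (lev h) * q` -/
theorem El_eq (h : SL n) (x y : Fin n → F) (c : F) :
    El h x y c = lev h * El 1 x ((h⁻¹ : SL n) *ᵥ y : Fin n → F) c := by
  rw [lev_apply, El_mul, El_inj]
  refine ⟨by rw [mul_one], by simp, ?_, by simp⟩
  rw [zero_add, Matrix.mulVec_mulVec, ← Matrix.SpecialLinearGroup.coe_mul, mul_inv_cancel,
    Matrix.SpecialLinearGroup.coe_one, Matrix.one_mulVec]

/-- the subgroup `Q` -/
def QQ (n : ℕ) : Subgroup (SL (n + 2)) where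
  carrier := {g | ∃ x y c, g = El 1 x y c}
  one_mem' := ⟨0, 0, 0, El_one.symm⟩
  mul_mem' := by
    rintro _ _ ⟨x, y, c, rfl⟩ ⟨x', y', c', rfl⟩
    exact ⟨_, _, _, q_mul x y x' y' c c'⟩
  inv_mem' := by
    rintro _ ⟨x, y, c, rfl⟩
    exact ⟨_, _, _, q_inv x y c⟩

theorem mem_QQ {g : SL (n + 2)} : g ∈ QQ n ↔ ∃ x y c, g = El 1 x y c := Iff.rfl

theorem lev_conj (h : SL n) (x y : Fin n → F) (c : F) :
    lev h * El 1 x y c * (lev h)⁻¹ = El 1 (x ᵥ* ((h⁻¹ : SL n) : Matrix (Fin n) (Fin n) F))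
      ((h : Matrix (Fin n) (Fin n) F) *ᵥ y) c := by
  rw [mul_inv_eq_iff_eq_mul, lev_apply, El_mul, El_mul, El_inj]
  refine ⟨by rw [mul_one, one_mul], ?_, ?_, by simp⟩
  · rw [Matrix.zero_vecMul, add_zero, zero_add,
      Matrix.vecMul_vecMul, ← Matrix.SpecialLinearGroup.coe_mul, inv_mul_cancel,
      Matrix.SpecialLinearGroup.coe_one, Matrix.vecMul_one]
  · rw [zero_add, Matrix.SpecialLinearGroup.coe_one, Matrix.one_mulVec, add_zero]

theorem QQ_conj {g : SL (n + 2)} (hg : g * zz n = zz n * g) : ∀ x ∈ QQ n, g * x * g⁻¹ ∈ QQ n := by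
  obtain ⟨h, a, b, d, rfl⟩ := comm_iff.1 hg
  rintro _ ⟨x, y, c, rfl⟩
  rw [El_eq]
  set q := El (1 : SL n) a ((h⁻¹ : SL n) *ᵥ b : Fin n → F) d with hq
  have hqQ : q ∈ QQ n := ⟨_, _, _, rfl⟩
  have h1 : q * El 1 x y c * q⁻¹ ∈ QQ n := mul_mem (mul_mem hqQ ⟨_, _, _, rfl⟩) (inv_mem hqQ)
  obtain ⟨x', y', c', h2⟩ := h1
  have e : lev h * q * El 1 x y c * (lev h * q)⁻¹ = lev h * (q * El 1 x y c * q⁻¹) * (lev h)⁻¹ := by group
  rw [e, h2, lev_conj]
  exact ⟨_, _, _, rfl⟩

/-- coordinates on `Q` -/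
noncomputable def qEquiv (n : ℕ) : ((Fin n → F) × (Fin n → F) × F) ≃ QQ n :=
  Equiv.ofBijective (fun t => ⟨El 1 t.1 t.2.1 t.2.2, ⟨_, _, _, rfl⟩⟩) (by
    constructor
    · rintro ⟨x, y, c⟩ ⟨x', y', c'⟩ H
      obtain ⟨-, h1, h2, h3⟩ := El_inj.1 (congrArg Subtype.val H)
      simp only at h1 h2 h3
      rw [h1, h2, h3]
    · rintro ⟨_, x, y, c, rfl⟩
      exact ⟨(x, y, c), rfl⟩)

theorem card_QQ (n : ℕ) : Nat.card (QQ n) = 2 ^ (2 * n + 1) := by
  rw [← Nat.card_congr (qEquiv n), Nat.card_prod, Nat.card_prod, Nat.card_fun]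
  simp only [Nat.card_eq_fintype_card, Fintype.card_fin, ZMod.card]
  rw [← pow_succ, ← pow_add]
  congr 1
  ring

/-- the elementary abelian subgroup -/
def EE (n : ℕ) : Subgroup (SL (n + 2)) where
  carrier := {g | ∃ x c, g = El 1 x 0 c}
  one_mem' := ⟨0, 0, El_one.symm⟩
  mul_mem' := by
    rintro _ _ ⟨x, c, rfl⟩ ⟨x', c', rfl⟩
    refine ⟨x + x', c + c', ?_⟩
    rw [q_mul, El_inj]
    exact ⟨rfl, rfl, by simp, by simp⟩
  inv_mem' := by
    rintro _ ⟨x, c, rfl⟩
    refine ⟨x, c, ?_⟩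
    rw [q_inv, El_inj]
    exact ⟨rfl, rfl, rfl, by simp⟩

noncomputable def eEquiv (n : ℕ) : ((Fin n → F) × F) ≃ EE n :=
  Equiv.ofBijective (fun t => ⟨El 1 t.1 0 t.2, ⟨_, _, rfl⟩⟩) (by
    constructor
    · rintro ⟨x, c⟩ ⟨x', c'⟩ H
      obtain ⟨-, h1, -, h3⟩ := El_inj.1 (congrArg Subtype.val H)
      simp only at h1 h3
      rw [h1, h3]
    · rintro ⟨_, x, c, rfl⟩
      exact ⟨(x, c), rfl⟩)

theorem card_EE (n : ℕ) : Nat.card (EE n) = 2 ^ (n + 1) := by
  rw [← Nat.card_congr (eEquiv n), Nat.card_prod, Nat.card_fun]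
  simp only [Nat.card_eq_fintype_card, Fintype.card_fin, ZMod.card]
  rw [← pow_succ]

theorem EE_le (n : ℕ) : EE n ≤ QQ n := by
  rintro _ ⟨x, c, rfl⟩
  exact ⟨x, 0, c, rfl⟩

theorem EE_comm (n : ℕ) : ∀ a ∈ EE n, ∀ b ∈ EE n, a * b = b * a := by
  rintro _ ⟨x, c, rfl⟩ _ ⟨x', c', rfl⟩
  rw [q_mul, q_mul, El_inj]
  exact ⟨rfl, add_comm _ _, rfl, by simp [add_comm]⟩

theorem EE_sq (n : ℕ) : ∀ a ∈ EE n, a ^ 2 = 1 := by
  rintro _ ⟨x, c, rfl⟩
  rw [pow_two, q_mul, ← El_one, El_inj]
  exact ⟨rfl, add_self_vec x, by simp, by simpa using add_self_F c⟩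

/-! ### `O₂(SL_n(2)) = 1` -/

theorem transvection_mulVec (i j : Fin n) (v : Fin n → F) :
    (Matrix.transvection i j (1 : F)) *ᵥ v = v + Pi.single i (v j) := by
  rw [Matrix.transvection, Matrix.add_mulVec, Matrix.one_mulVec]
  congr 1
  ext k
  by_cases hk : k = i
  · subst hk
    simp [Matrix.mulVec, dotProduct, Matrix.single_apply, Finset.sum_ite_eq]
  · rw [Pi.single_eq_of_ne hk]
    simp [Matrix.mulVec, dotProduct, Matrix.single_apply, Ne.symm hk]

/-- `SL_n(2)` acts on the vectors -/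
instance actV : MulAction (SL n) (Fin n → F) where
  smul g v := (g : Matrix (Fin n) (Fin n) F) *ᵥ v
  one_smul v := by
    show ((1 : SL n) : Matrix (Fin n) (Fin n) F) *ᵥ v = v
    rw [Matrix.SpecialLinearGroup.coe_one, Matrix.one_mulVec]
  mul_smul g h v := by
    show ((g * h : SL n) : Matrix (Fin n) (Fin n) F) *ᵥ v = (g : Matrix (Fin n) (Fin n) F) *ᵥ
      ((h : Matrix (Fin n) (Fin n) F) *ᵥ v)
    rw [Matrix.SpecialLinearGroup.coe_mul, Matrix.mulVec_mulVec]

theorem smul_def (g : SL n) (v : Fin n → F) : g • v = (g : Matrix (Fin n) (Fin n) F) *ᵥ v := rfl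

theorem normal_two_eq_bot (hn : 2 ≤ n) (N : Subgroup (SL n)) (hN : N.Normal) (h2 : IsPGroup 2 N) : N = ⊥ := by
  have : Fact (Nat.Prime 2) := ⟨Nat.prime_two⟩
  -- the fixed vectors
  let W : Set (Fin n → F) := {v | ∀ g ∈ N, g • v = v}
  have hWadd : ∀ v ∈ W, ∀ w ∈ W, v + w ∈ W := by
    intro v hv w hw g hg
    rw [smul_def, Matrix.mulVec_add]
    exact congrArg₂ (· + ·) (hv g hg) (hw g hg)
  have hWinv : ∀ v ∈ W, ∀ s : SL n, s • v ∈ W := by
    intro v hv s g hg
    have h1 : s⁻¹ * g * s ∈ N := by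
      have := hN.conj_mem g hg s⁻¹
      rwa [inv_inv] at this
    calc g • s • v = s • ((s⁻¹ * g * s) • v) := by rw [← mul_smul, ← mul_smul]; group
      _ = s • v := by rw [hv _ h1]
  have hWsingle : ∀ v ∈ W, ∀ i j : Fin n, i ≠ j → Pi.single i (v j) ∈ W := by
    intro v hv i j hij
    have h1 := hWadd v hv _ (hWinv v hv (Matrix.SpecialLinearGroup.transvection hij 1))
    have h3 : (Matrix.SpecialLinearGroup.transvection hij (1 : F)) • v = v + Pi.single i (v j) :=
      transvection_mulVec i j v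
    rw [h3, ← add_assoc, add_self_vec, zero_add] at h1
    exact h1
  -- a nonzero fixed vector
  obtain ⟨v, hvW, hv0⟩ : ∃ v ∈ W, v ≠ 0 := by
    have hcard : 2 ∣ Nat.card (Fin n → F) := by
      rw [Nat.card_fun]
      simp only [Nat.card_eq_fintype_card, Fintype.card_fin, ZMod.card]
      exact dvd_pow_self 2 (by omega)
    have h0 : (0 : Fin n → F) ∈ MulAction.fixedPoints N (Fin n → F) := by
      intro g
      show ((g : SL n) : Matrix (Fin n) (Fin n) F) *ᵥ 0 = 0
      rw [Matrix.mulVec_zero]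
    obtain ⟨v, hv, hv0⟩ := h2.exists_fixed_point_of_prime_dvd_card_of_fixed_point (Fin n → F) hcard h0
    exact ⟨v, fun g hg => hv ⟨g, hg⟩, hv0.symm⟩
  obtain ⟨j, hj⟩ : ∃ j, v j ≠ 0 := by
    by_contra hcon
    push Not at hcon
    exact hv0 (funext hcon)
  have hj1 : v j = 1 := eq_one_of_ne hj
  have hother : ∀ i j : Fin n, i ≠ j → (∃ v ∈ W, v j = 1) → (Pi.single i (1 : F) : Fin n → F) ∈ W := by
    rintro i j hij ⟨v, hv, hv1⟩
    have := hWsingle v hv i j hij
    rwa [hv1] at this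
  -- all the basis vectors
  have hne : ∀ i : Fin n, ∃ k : Fin n, k ≠ i := by
    intro i
    have : Nontrivial (Fin n) := Fin.nontrivial_iff_two_le.2 hn
    exact exists_ne i
  have hall : ∀ i : Fin n, (Pi.single i (1 : F) : Fin n → F) ∈ W := by
    intro i
    by_cases hij : i = j
    · obtain ⟨k, hk⟩ := hne i
      have h1 : (Pi.single k (1 : F) : Fin n → F) ∈ W := hother k j (hij ▸ hk) ⟨v, hvW, hj1⟩
      exact hother i k hk.symm ⟨_, h1, by simp⟩
    · exact hother i j hij ⟨v, hvW, hj1⟩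
  rw [eq_bot_iff]
  intro g hg
  rw [Subgroup.mem_bot]
  ext a b
  have h1 := hall b g hg
  rw [smul_def, Matrix.mulVec_single_one] at h1
  have h2 := congrFun h1 a
  rw [Matrix.col_apply] at h2
  rw [h2, Matrix.SpecialLinearGroup.coe_one, Pi.single_apply, Matrix.one_apply]

end Cfsg.Agent.H822.SLTrans
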