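import Cfsg.Agent.H822.SLTrans
import Cfsg.Agent.H822.Bridge
import Cfsg.Agent.Lib.Cores

/-!
# The centraliser of a transvection in `SL_{n+2}(2)`: the large extraspecial subgroup (helper822)
-/

set_option autoImplicit false

namespace Cfsg.Agent.H822.SLTrans

open Matrix Cfsg.Agent.Co2Type.Quad Cfsg.Agent.LargeExtra.Base Cfsg.Agent.H822.Bridge

variable {n : ℕ}

theorem F_cases (t : F) : t = 0 ∨ t = 1 := by revert t; decide

theorem zz_def : zz n = El 1 0 0 1 := rfl

theorem q_zero : El (1 : SL n) 0 0 0 = 1 := El_one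

theorem zz_ne : zz n ≠ 1 := by
  rw [zz_def, ← q_zero]
  intro h
  exact one_ne_zero (El_inj.1 h).2.2.2

theorem zz_sq : zz n * zz n = 1 := by
  rw [zz_def, q_mul, ← q_zero, El_inj]
  refine ⟨rfl, add_zero 0, add_zero 0, ?_⟩
  rw [zero_dotProduct, add_zero]; exact add_self_F 1

theorem q_mul_zz (x y : Fin n → F) (c : F) : El (1 : SL n) x y c * zz n = El 1 x y (c + 1) := by
  rw [zz_def, q_mul, El_inj]
  exact ⟨rfl, add_zero x, add_zero y, by simp⟩

theorem dot_eq_zero {x : Fin n → F} (h : ∀ y : Fin n → F, x ⬝ᵥ y = 0) : x = 0 := by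
  ext i
  have := h (Pi.single i 1)
  rwa [dotProduct_single, mul_one] at this

theorem large (n : ℕ) : Large (QQ n) (zz n) := by
  refine ⟨⟨0, 0, 1, rfl⟩, zz_ne, zz_sq, ?_, fun g hg x hx => QQ_conj hg x hx, ?_, ?_, ?_, ?_⟩
  · rintro _ ⟨x, y, c, rfl⟩
    rw [q_mul_zz, zz_def, q_mul, El_inj]
    refine ⟨rfl, (zero_add x).symm, (zero_add y).symm, ?_⟩
    rw [zero_dotProduct, add_zero, add_comm]
  · rintro _ ⟨x, y, c, rfl⟩
    rw [q_mul]
    rcases F_cases (x ⬝ᵥ y) with h | h
    · left
      rw [← q_zero, El_inj]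
      refine ⟨rfl, add_self_vec x, add_self_vec y, ?_⟩
      rw [h, add_zero]; exact add_self_F c
    · right
      rw [zz_def, El_inj]
      refine ⟨rfl, add_self_vec x, add_self_vec y, ?_⟩
      rw [h, add_self_F, zero_add]
  · rintro _ ⟨x, y, c, rfl⟩ _ ⟨x', y', c', rfl⟩
    rw [q_mul, q_mul]
    rcases F_cases (x ⬝ᵥ y' + x' ⬝ᵥ y) with h | h
    · left
      rw [El_inj]
      refine ⟨rfl, add_comm _ _, add_comm _ _, ?_⟩
      have key : ∀ a b c d : F, a + b = 0 → c + d + a = d + c + b := by decide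
      exact key _ _ _ _ h
    · right
      rw [q_mul_zz, El_inj]
      refine ⟨rfl, add_comm _ _, add_comm _ _, ?_⟩
      have key : ∀ a b c d : F, a + b = 1 → c + d + a = d + c + b + 1 := by decide
      exact key _ _ _ _ h
  · rintro _ ⟨x, y, c, rfl⟩ hc
    have h1 : ∀ x' y' : Fin n → F, x ⬝ᵥ y' = x' ⬝ᵥ y := by
      intro x' y'
      have := hc (El 1 x' y' 0) ⟨_, _, _, rfl⟩
      rw [q_mul, q_mul, El_inj] at this
      have h2 := this.2.2.2
      have key : ∀ a b c : F, c + 0 + a = 0 + c + b → a = b := by decide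
      exact key _ _ _ h2
    have hx : x = 0 := dot_eq_zero fun y' => by rw [h1 0 y', zero_dotProduct]
    have hy : y = 0 := dot_eq_zero fun x' => by
      rw [dotProduct_comm, ← h1 x' 0, dotProduct_zero]
    subst hx hy
    rcases F_cases c with h | h
    · left; rw [h]; exact q_zero
    · right; rw [h]; rfl
  · intro g hg hc
    obtain ⟨h, x, y, c, rfl⟩ := comm_iff.1 hg
    have h1 : h = 1 := by
      have h2 : ∀ x' : Fin n → F, x' = x' ᵥ* (h : Matrix (Fin n) (Fin n) F) := by
        intro x'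
        have := hc (El 1 x' 0 0) ⟨_, _, _, rfl⟩
        rw [El_mul, El_mul, El_inj] at this
        have h3 := this.2.1
        rw [Matrix.SpecialLinearGroup.coe_one, Matrix.vecMul_one, add_comm x' x] at h3
        exact add_left_cancel h3
      ext i j
      have h3 := congrFun (h2 (Pi.single i 1)) j
      rw [Matrix.single_one_vecMul] at h3
      rw [Matrix.SpecialLinearGroup.coe_one, Matrix.one_apply]
      rw [Pi.single_apply] at h3
      rw [Matrix.row_apply] at h3
      rw [← h3]
      by_cases hij : i = j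
      · subst hij; simp
      · rw [if_neg hij, if_neg (Ne.symm hij)]
    subst h1
    exact ⟨_, _, _, rfl⟩

/-- the centraliser -/
abbrev CC (n : ℕ) : Subgroup (SL (n + 2)) := Subgroup.centralizer ({zz n} : Set (SL (n + 2)))

theorem mem_CC {g : SL (n + 2)} : g ∈ CC n ↔ ∃ h x y c, g = El h x y c := by
  rw [Subgroup.mem_centralizer_singleton_iff, comm_iff]

/-- the projection on the Levi factor -/
noncomputable def rho (n : ℕ) : CC n →* SL n :=
  MonoidHom.mk' (fun g => Classical.choose (mem_CC.1 g.2)) (by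
    intro g g'
    obtain ⟨x, y, c, h⟩ := Classical.choose_spec (mem_CC.1 g.2)
    obtain ⟨x', y', c', h'⟩ := Classical.choose_spec (mem_CC.1 g'.2)
    obtain ⟨x'', y'', c'', h''⟩ := Classical.choose_spec (mem_CC.1 (g * g').2)
    have e : ((g * g' : CC n) : SL (n + 2)) = (g : SL (n + 2)) * g' := rfl
    rw [h'', h, h', El_mul, El_inj] at e
    exact e.1)

theorem rho_spec (g : CC n) : ∃ x y c, (g : SL (n + 2)) = El (rho n g) x y c :=
  Classical.choose_spec (mem_CC.1 g.2)

theorem rho_eq {g : CC n} {h : SL n} {x y : Fin n → F} {c : F} (H : (g : SL (n + 2)) = El h x y c) :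
    rho n g = h := by
  obtain ⟨x', y', c', h'⟩ := rho_spec g
  rw [h', El_inj] at H
  exact H.1

theorem rho_surjective : Function.Surjective (rho n) := by
  intro h
  exact ⟨⟨lev h, mem_CC.2 ⟨h, 0, 0, 0, rfl⟩⟩, rho_eq (x := 0) (y := 0) (c := 0) rfl⟩

theorem core_eq (hn : 2 ≤ n) : (Cfsg.pCore 2 ↥(CC n)).map (CC n).subtype = QQ n := by
  apply le_antisymm
  · rintro _ ⟨g, hg, rfl⟩
    have hN : ((Cfsg.pCore 2 ↥(CC n)).map (rho n)) = ⊥ := by
      refine normal_two_eq_bot hn _ ?_ ?_
      · exact (Cfsg.Agent.Lib.Cores.pCore_normal 2).map _ rho_surjective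
      · exact (Cfsg.Agent.Lib.Cores.pCore_isPGroup 2).map _
    have h1 : rho n g = 1 := by
      rw [← Subgroup.mem_bot, ← hN]
      exact ⟨g, hg, rfl⟩
    obtain ⟨x, y, c, h⟩ := rho_spec g
    rw [h1] at h
    exact ⟨x, y, c, h⟩
  · intro g hg
    have hgC : g ∈ CC n := Subgroup.mem_centralizer_singleton_iff.2 ((large n).comm_z g hg)
    refine ⟨⟨g, hgC⟩, ?_, rfl⟩
    have hN : ((QQ n).subgroupOf (CC n)).Normal :=
      Cfsg.Agent.LargeExtra.Nine.ToCent.normal (large n)
    have h2 : IsPGroup 2 ((QQ n).subgroupOf (CC n)) := (isPGroup (large n)).comap_subtype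
    exact Cfsg.Agent.Lib.Cores.le_pCore hN h2 (Subgroup.mem_subgroupOf.2 hg)

/-- the Levi complement -/
def KK (n : ℕ) : Subgroup (SL (n + 2)) := (lev (n := n)).range

theorem KK_le : KK n ≤ CC n := by
  rintro _ ⟨h, rfl⟩
  exact mem_CC.2 ⟨h, 0, 0, 0, rfl⟩

theorem inf_eq : QQ n ⊓ KK n = ⊥ := by
  rw [eq_bot_iff]
  rintro _ ⟨⟨x, y, c, hg⟩, h, rfl⟩
  rw [Subgroup.mem_bot]
  rw [lev_apply, El_inj] at hg
  rw [hg.1, map_one]

theorem sup_eq : QQ n ⊔ KK n = CC n := by
  apply le_antisymm
  · refine sup_le ?_ KK_le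
    intro g hg
    exact Subgroup.mem_centralizer_singleton_iff.2 ((large n).comm_z g hg)
  · intro g hg
    obtain ⟨h, x, y, c, rfl⟩ := mem_CC.1 hg
    rw [El_eq]
    exact mul_mem (Subgroup.mem_sup_right ⟨h, rfl⟩) (Subgroup.mem_sup_left ⟨_, _, _, rfl⟩)

noncomputable def kEquiv (n : ℕ) : KK n ≃* SL n := (MonoidHom.ofInjective lev_injective).symm

/-- a conjugate of `z` in `Q`, different from `z` -/
theorem exists_conj (hn : 1 ≤ n) : ∃ g : SL (n + 2), g * zz n * g⁻¹ ∈ QQ n ∧ g * zz n * g⁻¹ ≠ zz n := by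
  set k : Fin n := ⟨0, hn⟩ with hk
  have h1k : (1 : Fin (n + 2)) ≠ k.succ.succ := by
    intro h
    exact (Fin.succ_ne_zero _ (Fin.succ_injective _ h.symm))
  have h0k : (0 : Fin (n + 2)) ≠ k.succ.succ := (Fin.succ_ne_zero _).symm
  have hb : el (1 : Matrix (Fin n) (Fin n) F) (Pi.single k 1) 0 1 =
      1 + Matrix.single 0 1 1 + Matrix.single 0 k.succ.succ 1 := by
    have h1 := el_transvection (n := n)
    rw [Matrix.transvection] at h1
    rw [← h1]
    apply ext9
    · rw [Matrix.add_apply, el00, el00, Matrix.single_apply, if_neg (by simp), add_zero]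
    · rw [Matrix.add_apply, el01, el01, Matrix.single_apply, if_neg (by rintro ⟨-, h⟩; exact h1k h.symm),
        add_zero]
    · intro j
      rw [Matrix.add_apply, el02, el02, Matrix.single_apply, Pi.zero_apply, zero_add, Pi.single_apply]
      by_cases hj : j = k
      · rw [if_pos hj, if_pos ⟨rfl, by rw [hj]⟩]
      · rw [if_neg hj, if_neg]
        rintro ⟨-, h⟩
        exact hj (Fin.succ_injective _ (Fin.succ_injective _ h.symm))
    · rw [Matrix.add_apply, el10, el10, Matrix.single_apply, if_neg (by simp), add_zero]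
    · rw [Matrix.add_apply, el11, el11, Matrix.single_apply, if_neg (by simp), add_zero]
    · intro j
      rw [Matrix.add_apply, el12, el12, Matrix.single_apply, if_neg (by simp), add_zero]
    · intro i
      rw [Matrix.add_apply, el20, el20, Matrix.single_apply, if_neg, add_zero]
      rintro ⟨h, -⟩; exact Fin.succ_ne_zero _ h.symm
    · intro i
      rw [Matrix.add_apply, el21, el21, Matrix.single_apply, if_neg, add_zero]
      rintro ⟨h, -⟩; exact Fin.succ_ne_zero _ h.symm
    · intro i j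
      rw [Matrix.add_apply, el22, el22, Matrix.single_apply, if_neg, add_zero]
      rintro ⟨h, -⟩; exact Fin.succ_ne_zero _ h.symm
  have hadd : ∀ A : Matrix (Fin (n + 2)) (Fin (n + 2)) F, A + A = 0 := by
    intro A
    ext a b
    exact add_self_F _
  set T : SL (n + 2) := Matrix.SpecialLinearGroup.transvection h1k 1 with hT
  have key : T * zz n = El 1 (Pi.single k 1) 0 1 * T := by
    apply Subtype.ext
    show Matrix.transvection 1 k.succ.succ 1 * (zz n : Matrix (Fin (n + 2)) (Fin (n + 2)) F) =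
      el 1 (Pi.single k 1) 0 1 * Matrix.transvection 1 k.succ.succ 1
    rw [coe_zz, hb]
    simp only [Matrix.transvection, mul_add, add_mul, mul_one, one_mul]
    rw [Matrix.single_mul_single_of_ne _ _ _ _ h0k.symm, Matrix.single_mul_single_same,
      Matrix.single_mul_single_of_ne _ _ _ _ h1k.symm, mul_one, add_zero, add_zero]
    set A : Matrix (Fin (n + 2)) (Fin (n + 2)) F := Matrix.single 0 1 1
    set B : Matrix (Fin (n + 2)) (Fin (n + 2)) F := Matrix.single 1 k.succ.succ 1
    set D : Matrix (Fin (n + 2)) (Fin (n + 2)) F := Matrix.single 0 k.succ.succ 1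
    have : (1 : Matrix (Fin (n + 2)) (Fin (n + 2)) F) + A + D + (B + D) = 1 + B + A + (D + D) := by abel
    rw [this, hadd, add_zero]
  refine ⟨T, ?_, ?_⟩
  · rw [key, mul_inv_cancel_right]
    exact ⟨_, _, _, rfl⟩
  · rw [key, mul_inv_cancel_right]
    intro h
    have h2 := (El_inj.1 h).2.1
    have h3 := congrFun h2 k
    rw [Pi.single_eq_same] at h3
    exact one_ne_zero h3

end Cfsg.Agent.H822.SLTrans
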