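import Cfsg.Agent.H822.Bridge
import Cfsg.Agent.Lib.GenFitting
import Cfsg.Agent.Lib.Cores
import Cfsg.Agent.SignalizersComponents.PConstrained
import Cfsg.Agent.SignalizersComponents.LayerCenter
import Cfsg.Agent.SmallSimple.EvenOrder
import Cfsg.Agent.Lib.FrattiniPGroup
import Cfsg.Agent.QTUnique.Crit

/-!
# Structure of a group with a large extraspecial 2-subgroup (helper822)

Preparations for S5426.
-/

set_option autoImplicit false
set_option linter.unusedSectionVars false

namespace Cfsg.Agent.H822.Structure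

open Cfsg Cfsg.Agent.Co2Type.Quad Cfsg.Agent.LargeExtra.Base Cfsg.Agent.H822.Bridge
open Cfsg.Agent.SignalizersComponents.Components

/-- no odd-order `Q`-invariant subgroup -/
def NoOdd {G : Type*} [Group G] (Q : Subgroup G) : Prop :=
  ∀ K : Subgroup G, Odd (Nat.card K) → Q ≤ Subgroup.normalizer (K : Set G) → K = ⊥

section general

variable {G : Type*} [Group G]

theorem mem_cj {g x : G} {K : Subgroup G} :
    x ∈ K.map (MulAut.conj g).toMonoidHom ↔ g⁻¹ * x * g ∈ K := by
  constructor
  · rintro ⟨y, hy, rfl⟩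
    have : g⁻¹ * (g * y * g⁻¹) * g = y := by group
    show g⁻¹ * (g * y * g⁻¹) * g ∈ K
    rw [this]; exact hy
  · intro h
    refine ⟨_, h, ?_⟩
    show g * (g⁻¹ * x * g) * g⁻¹ = x
    group

theorem cj_mem {g x : G} {K : Subgroup G} (h : x ∈ K) :
    g * x * g⁻¹ ∈ K.map (MulAut.conj g).toMonoidHom := ⟨x, h, rfl⟩

theorem cj_cj (g h : G) (K : Subgroup G) :
    (K.map (MulAut.conj h).toMonoidHom).map (MulAut.conj g).toMonoidHom =
      K.map (MulAut.conj (g * h)).toMonoidHom := by
  ext x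
  rw [mem_cj, mem_cj, mem_cj]
  have : (g * h)⁻¹ * x * (g * h) = h⁻¹ * (g⁻¹ * x * g) * h := by group
  rw [this]

theorem cj_one (K : Subgroup G) : K.map (MulAut.conj (1 : G)).toMonoidHom = K := by
  ext x
  rw [mem_cj]
  have : (1 : G)⁻¹ * x * 1 = x := by group
  rw [this]

theorem cj_eq_self_of_mem_normalizer {g : G} {K : Subgroup G}
    (h : g ∈ Subgroup.normalizer (K : Set G)) : K.map (MulAut.conj g).toMonoidHom = K := by
  ext x
  rw [mem_cj]
  have h1 := Subgroup.mem_normalizer_iff.1 h (g⁻¹ * x * g)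
  have h2 : g * (g⁻¹ * x * g) * g⁻¹ = x := by group
  rw [h2] at h1
  exact h1

theorem mem_normalizer_of_cj_eq {g : G} {K : Subgroup G}
    (h : K.map (MulAut.conj g).toMonoidHom = K) : g ∈ Subgroup.normalizer (K : Set G) := by
  rw [Subgroup.mem_normalizer_iff]
  intro x
  constructor
  · intro hx
    have := cj_mem (g := g) hx
    rwa [h] at this
  · intro hx
    rw [← h, mem_cj] at hx
    have h2 : g⁻¹ * (g * x * g⁻¹) * g = x := by group
    rwa [h2] at hx

/-- An involution acting without fixed points inverts. -/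
theorem inverts_of_fpf [Finite G] {K : Subgroup G} {s : G} (hsn : s ∈ Subgroup.normalizer (K : Set G))
    (hss : s * s = 1) (hfix : ∀ k ∈ K, k * s = s * k → k = 1) : ∀ k ∈ K, s * k * s⁻¹ = k⁻¹ := by
  have hsK : ∀ k ∈ K, s * k * s⁻¹ ∈ K := fun k hk => (Subgroup.mem_normalizer_iff.1 hsn k).1 hk
  let f : K → K := fun k => ⟨(k : G)⁻¹ * (s * k * s⁻¹), mul_mem (inv_mem k.2) (hsK k k.2)⟩
  have hf : Function.Injective f := by
    intro k l hkl
    have h1 : (k : G)⁻¹ * (s * k * s⁻¹) = (l : G)⁻¹ * (s * l * s⁻¹) := congrArg Subtype.val hkl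
    have h2 : ((l : G) * (k : G)⁻¹) * s = s * ((l : G) * (k : G)⁻¹) := by
      have h3 : (l : G) * (k : G)⁻¹ = (s * l * s⁻¹) * (s * k * s⁻¹)⁻¹ := by
        rw [eq_mul_inv_iff_mul_eq, mul_assoc, h1]; group
      conv_lhs => rw [h3]
      group
    have h3 := hfix _ (mul_mem l.2 (inv_mem k.2)) h2
    apply Subtype.ext
    exact (mul_inv_eq_one.1 h3).symm
  have hsurj : Function.Surjective f := Finite.injective_iff_surjective.1 hf
  intro k hk
  obtain ⟨l, hl⟩ := hsurj ⟨k, hk⟩
  have h1 : (l : G)⁻¹ * (s * l * s⁻¹) = k := congrArg Subtype.val hl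
  have hsi : s⁻¹ = s := inv_eq_of_mul_eq_one_left hss
  rw [← h1, hsi]
  calc s * ((l : G)⁻¹ * (s * l * s)) * s = (s * (l : G)⁻¹ * s) * l * (s * s) := by group
    _ = (s * (l : G)⁻¹ * s) * l := by rw [hss, mul_one]
    _ = ((l : G)⁻¹ * (s * l * s))⁻¹ := by
        rw [mul_inv_rev, mul_inv_rev, mul_inv_rev, hsi, inv_inv]; group

theorem comm_of_inverts {K : Subgroup G} {s : G} (h : ∀ k ∈ K, s * k * s⁻¹ = k⁻¹) :
    ∀ k ∈ K, ∀ l ∈ K, k * l = l * k := by
  intro k hk l hl
  have h1 := h (l⁻¹ * k⁻¹) (mul_mem (inv_mem hl) (inv_mem hk))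
  have h2 : s * (l⁻¹ * k⁻¹) * s⁻¹ = (s * l⁻¹ * s⁻¹) * (s * k⁻¹ * s⁻¹) := by group
  rw [h2, h _ (inv_mem hl), h _ (inv_mem hk)] at h1
  simpa using h1.symm

end general

variable {G : Type*} [Group G] [Finite G] {Q : Subgroup G} {z : G}

/-- a nontrivial `Q`-invariant 2-subgroup contains `z` -/
theorem z_mem_of_two (h : Large Q z) {P : Subgroup G} (hP : IsPGroup 2 P) (hne : P ≠ ⊥)
    (hQP : Q ≤ Subgroup.normalizer (P : Set G)) : z ∈ P := by
  obtain ⟨x, hx, hx1, hc⟩ := Cfsg.Agent.QTUnique.exists_fixed (isPGroup h) hP hne hQP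
  rcases eq_of_centralizes h (g := x) (fun y hy => (hc y hy).symm) with h1 | h1
  · exact absurd h1 hx1
  · rw [← h1]; exact hx

/-- a nontrivial `Q`-invariant subgroup contains `z` -/
theorem z_mem_of_invariant (h : Large Q z) (hO : NoOdd Q) {N : Subgroup G} (hne : N ≠ ⊥)
    (hQN : Q ≤ Subgroup.normalizer (N : Set G)) : z ∈ N := by
  have : Fact (Nat.Prime 2) := ⟨Nat.prime_two⟩
  have heven : 2 ∣ Nat.card N := by
    by_contra h2
    exact hne (hO N (Nat.not_even_iff_odd.1 fun he => h2 he.two_dvd) hQN)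
  set H : Subgroup G := N ⊔ Q with hH
  have hNH : N ≤ H := le_sup_left
  have hQH : Q ≤ H := le_sup_right
  have hHN : H ≤ Subgroup.normalizer (N : Set G) := sup_le Subgroup.le_normalizer hQN
  have hQ' : IsPGroup 2 (Q.subgroupOf H) := (isPGroup h).comap_subtype
  obtain ⟨T, hT⟩ := hQ'.exists_le_sylow
  -- an involution of `N`
  obtain ⟨x, hx⟩ := exists_prime_orderOf_dvd_card' (G := N) 2 heven
  have hxH : (x : G) ∈ H := hNH x.2
  have hx2 : IsPGroup 2 (Subgroup.zpowers (⟨x, hxH⟩ : H)) := by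
    apply IsPGroup.of_card (n := 1)
    rw [Nat.card_zpowers, Subgroup.orderOf_mk, Subgroup.orderOf_coe, hx, pow_one]
  obtain ⟨T₁, hT₁⟩ := hx2.exists_le_sylow
  obtain ⟨g, hg⟩ := MulAction.exists_smul_eq H T T₁
  have hxT : (⟨x, hxH⟩ : H) ∈ (T₁ : Subgroup H) := hT₁ (Subgroup.mem_zpowers _)
  have hxg : g⁻¹ * ⟨x, hxH⟩ * g ∈ (T : Subgroup H) := by
    rw [← hg, Sylow.coe_subgroup_smul] at hxT
    have := (Subgroup.mem_pointwise_smul_iff_inv_smul_mem).1 hxT
    simpa [MulAut.smul_def] using this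
  -- the 2-subgroup `T ∩ N`
  set P : Subgroup G := ((T : Subgroup H).map H.subtype) ⊓ N with hPdef
  have hTp : IsPGroup 2 ((T : Subgroup H).map H.subtype) := T.2.map H.subtype
  have hP : IsPGroup 2 P := hTp.to_le inf_le_left
  have hPne : P ≠ ⊥ := by
    intro hbot
    have h1 : ((g⁻¹ * ⟨x, hxH⟩ * g : H) : G) ∈ P := by
      refine ⟨⟨_, hxg, rfl⟩, ?_⟩
      have h2 := hHN (inv_mem g.2)
      have h3 := (Subgroup.mem_normalizer_iff.1 h2 x).1 x.2
      simpa using h3
    rw [hbot, Subgroup.mem_bot] at h1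
    have h4 : (x : G) = 1 := by
      have h5 : (g : G)⁻¹ * x * g = 1 := h1
      calc (x : G) = g * ((g : G)⁻¹ * x * g) * (g : G)⁻¹ := by group
        _ = 1 := by rw [h5]; group
    have h5 : x = 1 := Subtype.ext h4
    rw [h5, orderOf_one] at hx
    exact absurd hx (by norm_num)
  have hQP : Q ≤ Subgroup.normalizer (P : Set G) := by
    intro q hq
    rw [Subgroup.mem_normalizer_iff]
    have hqT : (⟨q, hQH hq⟩ : H) ∈ (T : Subgroup H) := hT (by rw [Subgroup.mem_subgroupOf]; exact hq)
    have key : ∀ r : G, (hr : r ∈ Q) → ∀ y ∈ P, r * y * r⁻¹ ∈ P := by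
      rintro r hr y ⟨⟨t, ht, hty⟩, hyN⟩
      have hrT : (⟨r, hQH hr⟩ : H) ∈ (T : Subgroup H) :=
        hT (by rw [Subgroup.mem_subgroupOf]; exact hr)
      refine ⟨⟨⟨r, hQH hr⟩ * t * ⟨r, hQH hr⟩⁻¹, mul_mem (mul_mem hrT ht) (inv_mem hrT), ?_⟩, ?_⟩
      · rw [← hty]; rfl
      · exact (Subgroup.mem_normalizer_iff.1 (hQN hr) y).1 hyN
    intro y
    constructor
    · exact key q hq y
    · intro hy
      have := key q⁻¹ (inv_mem hq) _ hy
      have e : q⁻¹ * (q * y * q⁻¹) * q⁻¹⁻¹ = y := by group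
      rwa [e] at this
  exact (z_mem_of_two h hP hPne hQP).2

theorem oddCore_eq_bot (hO : NoOdd Q) : pPrimeCore 2 G = ⊥ := by
  apply hO
  · rw [← Nat.coprime_two_right]
    exact Cfsg.Agent.Lib.Cores.pPrimeCore_coprime 2
  · rw [Subgroup.normalizer_eq_top]; exact le_top

theorem fitting_eq (hO : NoOdd Q) : fittingSubgroup G = pCore 2 G := by
  have : Fact (Nat.Prime 2) := ⟨Nat.prime_two⟩
  exact Cfsg.Agent.SignalizersComponents.PConstrained.fittingSubgroup_eq_pCore_of_pPrimeCore_eq_bot 2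
    (oddCore_eq_bot hO)

/-- Case `O₂(G) ≠ 1`. -/
theorem case_core (h : Large Q z) (hO : NoOdd Q) (hne : pCore 2 G ≠ ⊥) :
    (∀ x ∈ Subgroup.normalClosure ({z} : Set G), ∀ y ∈ Subgroup.normalClosure ({z} : Set G), x * y = y * x) ∧
      generalizedFittingSubgroup G = pCore 2 G := by
  have : Fact (Nat.Prime 2) := ⟨Nat.prime_two⟩
  have hPn : (pCore 2 G).Normal := Cfsg.Agent.Lib.Cores.pCore_normal 2
  have hP : IsPGroup 2 (pCore 2 G) := Cfsg.Agent.Lib.Cores.pCore_isPGroup 2
  have hzP : z ∈ pCore 2 G := z_mem_of_two h hP hne (by rw [Subgroup.normalizer_eq_top]; exact le_top)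
  -- the centre
  set Z : Subgroup G := pCore 2 G ⊓ Subgroup.centralizer (pCore 2 G : Set G) with hZ
  have hZn : Z.Normal := by
    have : (Subgroup.centralizer (pCore 2 G : Set G)).Normal := inferInstance
    infer_instance
  have hZne : Z ≠ ⊥ := by
    have hnt : Nontrivial (pCore 2 G) := (Subgroup.nontrivial_iff_ne_bot _).2 hne
    have hnz := hP.center_nontrivial
    rw [Subgroup.nontrivial_iff_exists_ne_one] at hnz
    obtain ⟨c, hc, hc1⟩ := hnz
    intro hbot
    have : (c : G) ∈ Z := by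
      refine ⟨c.2, Subgroup.mem_centralizer_iff.2 ?_⟩
      intro y hy
      exact congrArg Subtype.val (Subgroup.mem_center_iff.1 hc ⟨y, hy⟩)
    rw [hbot, Subgroup.mem_bot] at this
    exact hc1 (Subtype.ext this)
  have hzZ : z ∈ Z := z_mem_of_two h (hP.to_le inf_le_left) hZne
    (by rw [Subgroup.normalizer_eq_top]; exact le_top)
  have hMZ : Subgroup.normalClosure ({z} : Set G) ≤ Z :=
    Subgroup.normalClosure_le_normal (Set.singleton_subset_iff.2 hzZ)
  refine ⟨fun x hx y hy => ?_, ?_⟩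
  · have h1 := (hMZ hx).1
    have h2 := (hMZ hy).2
    exact Subgroup.mem_centralizer_iff.1 h2 x h1
  · -- `E(G) = 1`
    have hfit := fitting_eq (G := G) hO
    have h1 : layer G ≤ Subgroup.centralizer (fittingSubgroup G : Set G) := layer_le_centralizer_fitting
    have hlz : ∀ x ∈ layer G, x * z = z * x := fun x hx => by
      have h2 := Subgroup.mem_centralizer_iff.1 (h1 hx) z (by rw [hfit]; exact hzP)
      exact h2.symm
    have hlQ : layer G ≤ Subgroup.normalizer (Q : Set G) := by
      intro x hx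
      exact centralizer_center_le h (Subgroup.mem_centralizer_iff.2 fun y hy => by
        rcases (center_eq h).1 hy with h3 | h3
        · rw [h3, one_mul, mul_one]
        · rw [h3]; exact (hlz x hx).symm)
    have hQs : Group.IsSolvable Q := by
      have := (isPGroup h).isNilpotent
      infer_instance
    have h2 := layer_commutator_solvable hlQ hQs
    have h3 : layer G ≤ Subgroup.centralizer (Q : Set G) := by
      rwa [Subgroup.commutator_eq_bot_iff_le_centralizer] at h2
    have h4 : layer G = ⊥ := by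
      rw [← layer_commutator_self, Subgroup.commutator_eq_bot_iff_le_centralizer]
      intro x hx
      rw [Subgroup.mem_centralizer_iff]
      intro y hy
      have hy' := eq_of_centralizes h (g := y) fun w hw =>
        (Subgroup.mem_centralizer_iff.1 (h3 hy) w hw).symm
      rcases hy' with hy' | hy'
      · rw [hy', one_mul, mul_one]
      · rw [hy']; exact (hlz x hx).symm
    rw [Cfsg.Agent.Lib.GenFitting.genFitting_def, h4, bot_sup_eq, hfit]

/-! ### The case `O₂(G) = 1` -/

theorem conj_mem_layer {x g : G} (hx : x ∈ layer G) : g * x * g⁻¹ ∈ layer G := by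
  have : (layer G).Normal := layer_normal G
  exact this.conj_mem x hx g

/-- `Z(E(G)) = 1` if `O₂(G) = 1` -/
theorem eq_one_of_central (hO : NoOdd Q) (hbot : pCore 2 G = ⊥) {x : G} (hx : x ∈ layer G)
    (hc : ∀ y ∈ layer G, y * x = x * y) : x = 1 := by
  have hln : (layer G).Normal := layer_normal G
  set Z : Subgroup G := layer G ⊓ Subgroup.centralizer (layer G : Set G) with hZ
  have hZn : Z.Normal := inferInstance
  have hZc : IsMulCommutative Z := by
    refine ⟨⟨fun a b => Subtype.ext ?_⟩⟩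
    have h1 := a.2.1
    have h2 := b.2.2
    exact Subgroup.mem_centralizer_iff.1 h2 a h1
  have hnil : Group.IsNilpotent Z := open scoped IsMulCommutative in inferInstance
  have h1 : Z ≤ fittingSubgroup G := le_sSup ⟨hZn, hnil⟩
  rw [fitting_eq hO, hbot] at h1
  have h2 : x ∈ Z := ⟨hx, Subgroup.mem_centralizer_iff.2 hc⟩
  exact (Subgroup.mem_bot.1 (h1 h2))

theorem comm_of_ne {K L : Subgroup G} (hK : IsComponent K) (hL : IsComponent L) (hne : K ≠ L) {x y : G}
    (hx : x ∈ K) (hy : y ∈ L) : x * y = y * x :=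
  (Subgroup.mem_centralizer_iff.1 (component_le_centralizer_of_ne hK hL hne hx) y hy).symm

theorem comm_layer {x : G} (H : ∀ K : Subgroup G, IsComponent K → ∀ y ∈ K, y * x = x * y) :
    ∀ y ∈ layer G, y * x = x * y := by
  have h1 : layer G ≤ Subgroup.centralizer ({x} : Set G) := by
    rw [layer_le_iff]
    intro K hK y hy
    rw [Subgroup.mem_centralizer_singleton_iff]
    exact H K hK y hy
  intro y hy
  exact Subgroup.mem_centralizer_singleton_iff.1 (h1 hy)

/-- a component meets its centraliser trivially -/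
theorem eq_one_of_comm_component (hO : NoOdd Q) (hbot : pCore 2 G = ⊥) {L : Subgroup G} (hL : IsComponent L)
    {x : G} (hx : x ∈ L) (hc : ∀ y ∈ L, y * x = x * y) : x = 1 := by
  refine eq_one_of_central hO hbot (component_le_layer hL hx) (comm_layer fun K hK y hy => ?_)
  by_cases hKL : K = L
  · rw [hKL] at hy; exact hc y hy
  · exact comm_of_ne hK hL hKL hy hx

theorem component_isSimple (hO : NoOdd Q) (hbot : pCore 2 G = ⊥) {L : Subgroup G} (hL : IsComponent L) :
    IsSimpleGroup L := by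
  have hc : Subgroup.center L = ⊥ := by
    rw [eq_bot_iff]
    intro x hx
    rw [Subgroup.mem_bot]
    apply Subtype.ext
    refine eq_one_of_comm_component hO hbot hL x.2 fun y hy => ?_
    exact congrArg Subtype.val (Subgroup.mem_center_iff.1 hx ⟨y, hy⟩)
  have h1 := hL.2.2
  have e : L ⧸ Subgroup.center L ≃* L :=
    (QuotientGroup.quotientMulEquivOfEq hc).trans QuotientGroup.quotientBot
  exact e.symm.isSimpleGroup

theorem not_comm {L : Subgroup G} (hL : IsComponent L) : ¬ IsMulCommutative L :=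
  quasisimple_not_isMulCommutative hL.2

theorem exists_component (hO : NoOdd Q) (hbot : pCore 2 G = ⊥) (h : Large Q z) :
    ∃ L : Subgroup G, IsComponent L := by
  by_contra hcon
  push Not at hcon
  have h1 : layer G = ⊥ := by
    rw [eq_bot_iff, layer_le_iff]
    intro K hK
    exact absurd hK (hcon K)
  have h2 : generalizedFittingSubgroup G = ⊥ := by
    rw [Cfsg.Agent.Lib.GenFitting.genFitting_def, h1, fitting_eq hO, hbot, bot_sup_eq]
  have h3 := Cfsg.Agent.Lib.GenFitting.centralizer_genFitting_le (G := G)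
  rw [h2] at h3
  have h4 : z ∈ (⊥ : Subgroup G) := h3 (by
    rw [Subgroup.mem_centralizer_iff]
    intro y hy
    have : y = 1 := Subgroup.mem_bot.1 hy
    rw [this, one_mul, mul_one])
  exact h.z_ne (Subgroup.mem_bot.1 h4)

/-- the product of the `Q`-conjugates of `L` -/
def orb (Q L : Subgroup G) : Subgroup G := ⨆ q : Q, L.map (MulAut.conj (q : G)).toMonoidHom

omit [Finite G] in
theorem le_orb (Q L : Subgroup G) {q : G} (hq : q ∈ Q) :
    L.map (MulAut.conj q).toMonoidHom ≤ orb Q L :=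
  le_iSup (fun q : Q => L.map (MulAut.conj (q : G)).toMonoidHom) ⟨q, hq⟩

omit [Finite G] in
theorem normalizes_orb (Q L : Subgroup G) : Q ≤ Subgroup.normalizer (orb Q L : Set G) := by
  have key : ∀ r ∈ Q, (orb Q L).map (MulAut.conj r).toMonoidHom ≤ orb Q L := by
    intro r hr
    unfold orb
    rw [Subgroup.map_iSup]
    refine iSup_le fun q => ?_
    rw [cj_cj]
    exact le_orb Q L (mul_mem hr q.2)
  intro r hr
  rw [Subgroup.mem_normalizer_iff]
  intro x
  constructor
  · intro hx
    exact key r hr (cj_mem hx)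
  · intro hx
    have := key r⁻¹ (inv_mem hr) (cj_mem (g := r⁻¹) hx)
    have e : r⁻¹ * (r * x * r⁻¹) * r⁻¹⁻¹ = x := by group
    rwa [e] at this

theorem z_mem_orb (h : Large Q z) (hO : NoOdd Q) {L : Subgroup G} (hL : IsComponent L) : z ∈ orb Q L := by
  refine z_mem_of_invariant h hO ?_ (normalizes_orb Q L)
  intro hb
  have h1 := le_orb Q L (one_mem Q)
  rw [hb, cj_one] at h1
  exact component_ne_bot hL (le_bot_iff.1 h1)

theorem z_mem_layer (h : Large Q z) (hO : NoOdd Q) (hbot : pCore 2 G = ⊥) : z ∈ layer G := by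
  obtain ⟨L, hL⟩ := exists_component hO hbot h
  have h1 : orb Q L ≤ layer G := by
    refine iSup_le fun q => component_le_layer (isComponent_conj _ hL)
  exact h1 (z_mem_orb h hO hL)

/-- if `x` commutes with all `Q`-conjugates of `L` elementwise then it commutes with `orb Q L` -/
theorem comm_orb {L : Subgroup G} {x : G}
    (H : ∀ q ∈ Q, ∀ y ∈ L.map (MulAut.conj q).toMonoidHom, y * x = x * y) : ∀ y ∈ orb Q L, y * x = x * y := by
  have h1 : orb Q L ≤ Subgroup.centralizer ({x} : Set G) := by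
    refine iSup_le fun q y hy => ?_
    rw [Subgroup.mem_centralizer_singleton_iff]
    exact H q q.2 y hy
  intro y hy
  exact Subgroup.mem_centralizer_singleton_iff.1 (h1 hy)

/-- `Q` is transitive on the components -/
theorem transitive (h : Large Q z) (hO : NoOdd Q) (hbot : pCore 2 G = ⊥) {L K : Subgroup G}
    (hL : IsComponent L) (hK : IsComponent K) : ∃ q ∈ Q, K = L.map (MulAut.conj q).toMonoidHom := by
  by_contra hcon
  push Not at hcon
  apply h.z_ne
  refine eq_one_of_central hO hbot (z_mem_layer h hO hbot) (comm_layer fun C hC y hy => ?_)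
  by_cases hCL : ∃ q ∈ Q, C = L.map (MulAut.conj q).toMonoidHom
  · obtain ⟨q, hq, rfl⟩ := hCL
    refine (comm_orb (Q := Q) (L := K) (x := y) ?_ z (z_mem_orb h hO hK)).symm
    intro r hr w hw
    refine comm_of_ne (isComponent_conj r hK) (isComponent_conj q hL) ?_ hw hy
    intro heq
    apply hcon (r⁻¹ * q) (mul_mem (inv_mem hr) hq)
    rw [← cj_cj, ← heq, cj_cj, inv_mul_cancel, cj_one]
  · push Not at hCL
    refine (comm_orb (Q := Q) (L := L) (x := y) ?_ z (z_mem_orb h hO hL)).symm
    intro r hr w hw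
    exact comm_of_ne (isComponent_conj r hL) hC (hCL r hr).symm hw hy

/-- `⟨z^G⟩ = E(G) = F*(G)` -/
theorem normalClosure_eq (h : Large Q z) (hO : NoOdd Q) (hbot : pCore 2 G = ⊥) :
    Subgroup.normalClosure ({z} : Set G) = layer G := by
  have hln : (layer G).Normal := layer_normal G
  apply le_antisymm
  · exact Subgroup.normalClosure_le_normal (Set.singleton_subset_iff.2 (z_mem_layer h hO hbot))
  · set M := Subgroup.normalClosure ({z} : Set G) with hM
    have hzM : z ∈ M := Subgroup.subset_normalClosure (Set.mem_singleton z)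
    rw [layer_le_iff]
    intro K hK
    rcases component_le_or_commutator_eq_bot_of_le_normalizer hK (H := M)
      (by rw [Subgroup.normalizer_eq_top]; exact le_top) with h1 | h1
    · exact h1
    · exfalso
      rw [Subgroup.commutator_eq_bot_iff_le_centralizer] at h1
      have h2 : ∀ y ∈ K, ∀ m ∈ M, m * y = y * m := fun y hy m hm =>
        Subgroup.mem_centralizer_iff.1 (h1 hy) m hm
      apply h.z_ne
      refine eq_one_of_central hO hbot (z_mem_layer h hO hbot) (comm_layer fun C hC y hy => ?_)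
      obtain ⟨q, hq, rfl⟩ := transitive h hO hbot hK hC
      rw [mem_cj] at hy
      have h3 := h2 _ hy (q⁻¹ * z * q) (by
        have hMn : M.Normal := Subgroup.normalClosure_normal
        have := hMn.conj_mem z hzM q⁻¹
        rwa [inv_inv] at this)
      calc y * z = q * ((q⁻¹ * y * q) * (q⁻¹ * z * q)) * q⁻¹ := by group
        _ = q * ((q⁻¹ * z * q) * (q⁻¹ * y * q)) * q⁻¹ := by rw [h3]
        _ = z * y := by group

theorem genFitting_eq (hO : NoOdd Q) (hbot : pCore 2 G = ⊥) : generalizedFittingSubgroup G = layer G := by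
  rw [Cfsg.Agent.Lib.GenFitting.genFitting_def, fitting_eq hO, hbot, sup_bot_eq]

end Cfsg.Agent.H822.Structure
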