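import Cfsg.Agent.H822.Structure

/-!
# Structure of a group with a large extraspecial 2-subgroup: two components (helper822)
-/

set_option autoImplicit false
set_option linter.unusedSectionVars false

namespace Cfsg.Agent.H822.Structure

open Cfsg Cfsg.Agent.Co2Type.Quad Cfsg.Agent.LargeExtra.Base Cfsg.Agent.H822.Bridge
open Cfsg.Agent.SignalizersComponents.Components

variable {G : Type*} [Group G] [Finite G] {Q : Subgroup G} {z : G}

/-- the bad situation: `u ∈ Q` moves the component `L` -/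
structure Sit (Q : Subgroup G) (z : G) (L : Subgroup G) (u : G) : Prop where
  h : Large Q z
  hO : NoOdd Q
  hbot : pCore 2 G = ⊥
  hL : IsComponent L
  hu : u ∈ Q
  hne : L.map (MulAut.conj u).toMonoidHom ≠ L

namespace Sit

variable {L : Subgroup G} {u : G}

theorem y_mem (s : Sit Q z L u) {x : G} (hxz : x * z = z * x) : x⁻¹ * (u * x * u⁻¹) ∈ Q := by
  have h1 : x⁻¹ * z = z * x⁻¹ := by
    rw [inv_mul_eq_iff_eq_mul, ← mul_assoc, hxz, mul_inv_cancel_right]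
  have h2 := s.h.conj_mem x⁻¹ h1 u s.hu
  have h3 := mul_mem h2 (inv_mem s.hu)
  have e : x⁻¹ * u * x⁻¹⁻¹ * u⁻¹ = x⁻¹ * (u * x * u⁻¹) := by group
  rwa [e] at h3

theorem comm_a (s : Sit Q z L u) {x y : G} (hx : x ∈ L) (hy : y ∈ L) :
    x * (u * y * u⁻¹) = (u * y * u⁻¹) * x :=
  comm_of_ne s.hL (isComponent_conj u s.hL) (fun h => s.hne h.symm) hx (cj_mem hy)

/-- an element of `L` lying in `L^u` is trivial -/
theorem eq_one_of_mem_both (s : Sit Q z L u) {x : G} (hx : x ∈ L)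
    (hx' : x ∈ L.map (MulAut.conj u).toMonoidHom) : x = 1 := by
  refine eq_one_of_comm_component s.hO s.hbot s.hL hx fun y hy => ?_
  exact comm_of_ne s.hL (isComponent_conj u s.hL) (fun h => s.hne h.symm) hy hx'

theorem pow_four (s : Sit Q z L u) {x : G} (hx : x ∈ L) (hxz : x * z = z * x) : x ^ 4 = 1 := by
  have h1 := s.y_mem hxz
  have hc : Commute x⁻¹ (u * x * u⁻¹) := by
    have : Commute x (u * x * u⁻¹) := s.comm_a hx hx
    exact this.inv_left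
  have h2 : (x⁻¹ * (u * x * u⁻¹)) ^ 4 = 1 := by
    have e : (x⁻¹ * (u * x * u⁻¹)) ^ 4 = ((x⁻¹ * (u * x * u⁻¹)) * (x⁻¹ * (u * x * u⁻¹))) *
      ((x⁻¹ * (u * x * u⁻¹)) * (x⁻¹ * (u * x * u⁻¹))) := by
      rw [show (4 : ℕ) = 2 * 2 from rfl, pow_mul, pow_two, pow_two]
    rw [e]
    rcases s.h.sq _ h1 with h3 | h3 <;> rw [h3]
    · rw [one_mul]
    · exact s.h.z_sq
  rw [hc.mul_pow] at h2
  have h3 : x ^ 4 = (u * x * u⁻¹) ^ 4 := by
    rw [inv_pow, inv_mul_eq_one] at h2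
    exact h2
  refine s.eq_one_of_mem_both (pow_mem hx 4) ?_
  rw [h3]
  exact pow_mem (cj_mem hx) 4

/-- `R = C_L(z)` -/
def R (L : Subgroup G) (z : G) : Subgroup G := L ⊓ Subgroup.centralizer ({z} : Set G)

theorem mem_R {x : G} : x ∈ R L z ↔ x ∈ L ∧ x * z = z * x := by
  unfold R
  rw [Subgroup.mem_inf, Subgroup.mem_centralizer_singleton_iff]

theorem R_two (s : Sit Q z L u) : IsPGroup 2 (R L z) := by
  intro x
  refine ⟨2, ?_⟩
  obtain ⟨h1, h2⟩ := mem_R.1 x.2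
  exact Subtype.ext (s.pow_four h1 h2)

/-- every 2-subgroup of `L` has order at most `|R|` -/
theorem card_le (s : Sit Q z L u) {S : Subgroup G} (hS : IsPGroup 2 S) (hSL : S ≤ L) :
    Nat.card S ≤ Nat.card (R L z) := by
  have : Fact (Nat.Prime 2) := ⟨Nat.prime_two⟩
  obtain ⟨T, hT⟩ := (isPGroup s.h).exists_le_sylow
  have hTz := Cfsg.Agent.LargeExtra.TwoCentral.le_centralizer_of_two s.h T.2 hT
  obtain ⟨T₁, hT₁⟩ := hS.exists_le_sylow
  obtain ⟨g, hg⟩ := MulAction.exists_smul_eq G T T₁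
  have hST : ∀ x ∈ S, g⁻¹ * x * g ∈ (T : Subgroup G) := by
    intro x hx
    have hxT : x ∈ (T₁ : Subgroup G) := hT₁ hx
    rw [← hg, Sylow.coe_subgroup_smul] at hxT
    have := (Subgroup.mem_pointwise_smul_iff_inv_smul_mem).1 hxT
    simpa [MulAut.smul_def] using this
  obtain ⟨q, hq, hqL⟩ := transitive s.h s.hO s.hbot s.hL (isComponent_conj g⁻¹ s.hL)
  -- the injection `x ↦ q⁻¹ g⁻¹ x g q`
  have hqT : q ∈ (T : Subgroup G) := hT hq
  have hf : ∀ x ∈ S, q⁻¹ * (g⁻¹ * x * g) * q ∈ R L z := by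
    intro x hx
    rw [mem_R]
    constructor
    · have h1 : g⁻¹ * x * g⁻¹⁻¹ ∈ L.map (MulAut.conj g⁻¹).toMonoidHom := cj_mem (hSL hx)
      rw [hqL, mem_cj, inv_inv] at h1
      exact h1
    · have h1 : q⁻¹ * (g⁻¹ * x * g) * q ∈ (T : Subgroup G) :=
        mul_mem (mul_mem (inv_mem hqT) (hST x hx)) hqT
      exact Subgroup.mem_centralizer_singleton_iff.1 (hTz h1)
  refine Nat.card_le_card_of_injective (fun x : S => (⟨_, hf x x.2⟩ : R L z)) ?_
  intro x y hxy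
  have h1 : q⁻¹ * (g⁻¹ * (x : G) * g) * q = q⁻¹ * (g⁻¹ * (y : G) * g) * q := congrArg Subtype.val hxy
  apply Subtype.ext
  have h2 := mul_left_cancel (mul_right_cancel h1)
  exact mul_left_cancel (mul_right_cancel h2)

theorem z_normalizes (s : Sit Q z L u) {K : Subgroup G} (hK : IsComponent K) :
    z ∈ Subgroup.normalizer (K : Set G) :=
  layer_le_normalizer_component hK (z_mem_layer s.h s.hO s.hbot)

theorem four_le (s : Sit Q z L u) : 4 ≤ Nat.card (R L z) := by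
  have : Fact (Nat.Prime 2) := ⟨Nat.prime_two⟩
  -- `C_L(z) ≠ 1`
  have h1 : ∃ x ∈ L, x * z = z * x ∧ x ≠ 1 := by
    by_contra hcon
    push Not at hcon
    have h2 := inverts_of_fpf (s.z_normalizes s.hL) s.h.z_sq hcon
    have h3 := comm_of_inverts h2
    apply not_comm s.hL
    exact ⟨⟨fun a b => Subtype.ext (h3 a a.2 b b.2)⟩⟩
  obtain ⟨x, hxL, hxz, hx1⟩ := h1
  have h2 : 2 ∣ Nat.card L := by
    have h3 : x ^ 4 = 1 := s.pow_four hxL hxz
    have h4 : orderOf x ∣ 2 ^ 2 := orderOf_dvd_of_pow_eq_one h3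
    obtain ⟨k, hk, hk'⟩ := (Nat.dvd_prime_pow Nat.prime_two).1 h4
    have h5 : k ≠ 0 := by
      rintro rfl
      rw [pow_zero, orderOf_eq_one_iff] at hk'
      exact hx1 hk'
    have h6 : 2 ∣ orderOf x := by rw [hk']; exact dvd_pow_self 2 h5
    have h7 := orderOf_dvd_natCard (⟨x, hxL⟩ : L)
    rw [Subgroup.orderOf_mk] at h7
    exact h6.trans h7
  have := component_isSimple s.hO s.hbot s.hL
  have h4 : 4 ∣ Nat.card L := Cfsg.Agent.SmallSimple.EvenOrder.four_dvd_card (not_comm s.hL) h2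
  obtain ⟨S, hS⟩ := Sylow.exists_subgroup_card_pow_prime (G := L) 2 (n := 2) (by simpa using h4)
  have hS2 : IsPGroup 2 (S.map L.subtype) := (IsPGroup.of_card (n := 2) hS).map L.subtype
  have h5 := s.card_le hS2 (Subgroup.map_subtype_le S)
  rw [Subgroup.card_map_of_injective L.subtype_injective, hS] at h5
  simpa using h5

/-- two-valued invariant separating the elements of `R` is impossible -/
theorem false_of_two (s : Sit Q z L u) (w : G → G) (hw : ∀ x ∈ R L z, w x = 1 ∨ w x = z)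
    (hinj : ∀ x ∈ R L z, ∀ y ∈ R L z, w x = w y → x = y) : False := by
  have h4 := s.four_le
  have : Nat.card (R L z) ≤ 2 := by
    have h1 : Nat.card (R L z) ≤ Nat.card (({1, z} : Set G)) := by
      refine Nat.card_le_card_of_injective
        (fun x : R L z => (⟨w x, by rcases hw x x.2 with h | h <;> simp [h]⟩ : ({1, z} : Set G))) ?_
      intro x y hxy
      exact Subtype.ext (hinj x x.2 y y.2 (congrArg Subtype.val hxy))
    have h2 : Nat.card (({1, z} : Set G)) = 2 := by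
      rw [Nat.card_coe_set_eq, Set.ncard_pair s.h.z_ne.symm]
    omega
  omega

/-- equality from `x * d = y * e` with `x, y ∈ L`, `d, e` centralising `L` -/
theorem eq_of_mul_eq (s : Sit Q z L u) {x y d e : G} (hx : x ∈ L) (hy : y ∈ L)
    (hd : ∀ l ∈ L, l * d = d * l) (he : ∀ l ∈ L, l * e = e * l) (h : x * d = y * e) : x = y ∧ d = e := by
  have h1 : y⁻¹ * x = e * d⁻¹ := by
    rw [inv_mul_eq_iff_eq_mul, ← mul_assoc, ← h, mul_assoc, mul_inv_cancel, mul_one]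
  have h2 : y⁻¹ * x = 1 := by
    refine eq_one_of_comm_component s.hO s.hbot s.hL (mul_mem (inv_mem hy) hx) fun l hl => ?_
    rw [h1]
    have hd' : l * d⁻¹ = d⁻¹ * l := by
      rw [eq_inv_mul_iff_mul_eq, ← mul_assoc, ← hd l hl, mul_assoc, mul_inv_cancel, mul_one]
    calc l * (e * d⁻¹) = (l * e) * d⁻¹ := by rw [mul_assoc]
      _ = e * (l * d⁻¹) := by rw [he l hl, mul_assoc]
      _ = e * d⁻¹ * l := by rw [hd', mul_assoc]
  have h3 : x = y := by
    rw [inv_mul_eq_one] at h2; exact h2.symm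
  refine ⟨h3, ?_⟩
  rw [h3] at h
  exact mul_left_cancel h

theorem two_components (s : Sit Q z L u) {K : Subgroup G} (hK : IsComponent K) :
    K = L ∨ K = L.map (MulAut.conj u).toMonoidHom := by
  by_contra hcon
  push Not at hcon
  obtain ⟨hKL, hKu⟩ := hcon
  obtain ⟨r, hr, rfl⟩ := transitive s.h s.hO s.hbot s.hL hK
  -- `L^{ru} ≠ L`
  have hru : L.map (MulAut.conj (r * u)).toMonoidHom ≠ L := by
    intro heq
    apply hKu
    rw [← cj_cj] at heq
    have h1 : L.map (MulAut.conj u).toMonoidHom = L.map (MulAut.conj r⁻¹).toMonoidHom := by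
      have := congrArg (fun X : Subgroup G => X.map (MulAut.conj r⁻¹).toMonoidHom) heq
      simp only [cj_cj] at this
      rw [show r⁻¹ * (r * u) = u by group] at this
      exact this
    rw [h1]
    -- `r⁻¹ = r` or `r z`
    have h2 : r = r⁻¹ * 1 ∨ r = r⁻¹ * z := by
      rcases s.h.sq r hr with h | h
      · left; rw [mul_one]; exact (inv_eq_of_mul_eq_one_left h).symm
      · right; rw [← h]; group
    rcases h2 with h2 | h2
    · rw [mul_one] at h2; rw [← h2]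
    · conv_lhs => rw [h2]
      rw [← cj_cj, cj_eq_self_of_mem_normalizer (s.z_normalizes s.hL)]
  refine s.false_of_two (fun x => (x⁻¹ * (u * x * u⁻¹))⁻¹ * (r * (x⁻¹ * (u * x * u⁻¹)) * r⁻¹)) ?_ ?_
  · intro x hx
    obtain ⟨hxL, hxz⟩ := mem_R.1 hx
    have hy := s.y_mem hxz
    set y := x⁻¹ * (u * x * u⁻¹) with hydef
    rcases s.h.comm r hr y hy with h1 | h1
    · left
      show y⁻¹ * (r * y * r⁻¹) = 1
      rw [h1]; group
    · right
      show y⁻¹ * (r * y * r⁻¹) = z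
      rw [h1]
      calc y⁻¹ * (y * r * z * r⁻¹) = (r * z) * r⁻¹ := by group
        _ = (z * r) * r⁻¹ := by rw [s.h.comm_z r hr]
        _ = z := by group
  · intro x hx y hy hxy
    obtain ⟨hxL, hxz⟩ := mem_R.1 hx
    obtain ⟨hyL, hyz⟩ := mem_R.1 hy
    -- `w x = x * d`
    have key : ∀ x ∈ L, (x⁻¹ * (u * x * u⁻¹))⁻¹ * (r * (x⁻¹ * (u * x * u⁻¹)) * r⁻¹) =
        x * ((u * x * u⁻¹)⁻¹ * ((r * x * r⁻¹)⁻¹ * ((r * u) * x * (r * u)⁻¹))) := by
      intro x hx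
      have h1 := s.comm_a hx hx
      have h2 : (u * x * u⁻¹)⁻¹ * x = x * (u * x * u⁻¹)⁻¹ := by
        rw [inv_mul_eq_iff_eq_mul, ← mul_assoc, ← h1, mul_inv_cancel_right]
      calc (x⁻¹ * (u * x * u⁻¹))⁻¹ * (r * (x⁻¹ * (u * x * u⁻¹)) * r⁻¹)
          = ((u * x * u⁻¹)⁻¹ * x) * ((r * x * r⁻¹)⁻¹ * ((r * u) * x * (r * u)⁻¹)) := by group
        _ = _ := by rw [h2]; group
    have hdc : ∀ x ∈ L, ∀ l ∈ L, l * ((u * x * u⁻¹)⁻¹ * ((r * x * r⁻¹)⁻¹ * ((r * u) * x * (r * u)⁻¹))) =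
        ((u * x * u⁻¹)⁻¹ * ((r * x * r⁻¹)⁻¹ * ((r * u) * x * (r * u)⁻¹))) * l := by
      intro x hx l hl
      have c1 : Commute l (u * x * u⁻¹) := s.comm_a hl hx
      have c2 : Commute l (r * x * r⁻¹) :=
        comm_of_ne s.hL (isComponent_conj r s.hL) (fun h => hKL h.symm) hl (cj_mem hx)
      have c3 : Commute l ((r * u) * x * (r * u)⁻¹) :=
        comm_of_ne s.hL (isComponent_conj (r * u) s.hL) (fun h => hru h.symm) hl (cj_mem hx)
      exact (c1.inv_right.mul_right (c2.inv_right.mul_right c3)).eq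
    have h1 : (x⁻¹ * (u * x * u⁻¹))⁻¹ * (r * (x⁻¹ * (u * x * u⁻¹)) * r⁻¹) =
      (y⁻¹ * (u * y * u⁻¹))⁻¹ * (r * (y⁻¹ * (u * y * u⁻¹)) * r⁻¹) := hxy
    rw [key x hxL, key y hyL] at h1
    exact (s.eq_of_mul_eq hxL hyL (hdc x hxL) (hdc y hyL) h1).1

theorem layer_eq (s : Sit Q z L u) : layer G = L ⊔ L.map (MulAut.conj u).toMonoidHom := by
  apply le_antisymm
  · rw [layer_le_iff]
    intro K hK
    rcases s.two_components hK with h | h
    · rw [h]; exact le_sup_left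
    · rw [h]; exact le_sup_right
  · exact sup_le (component_le_layer s.hL) (component_le_layer (isComponent_conj u s.hL))

/-- elements of the layer are products -/
theorem exists_mul (s : Sit Q z L u) {x : G} (hx : x ∈ layer G) :
    ∃ a ∈ L, ∃ b ∈ L, x = a * (u * b * u⁻¹) := by
  let P : Subgroup G :=
    { carrier := {x | ∃ a ∈ L, ∃ b ∈ L, x = a * (u * b * u⁻¹)}
      one_mem' := ⟨1, one_mem _, 1, one_mem _, by group⟩
      mul_mem' := by
        rintro x y ⟨a, ha, b, hb, rfl⟩ ⟨c, hc, d, hd, rfl⟩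
        refine ⟨a * c, mul_mem ha hc, b * d, mul_mem hb hd, ?_⟩
        calc a * (u * b * u⁻¹) * (c * (u * d * u⁻¹)) = a * ((u * b * u⁻¹) * c) * (u * d * u⁻¹) := by group
          _ = a * (c * (u * b * u⁻¹)) * (u * d * u⁻¹) := by rw [s.comm_a hc hb]
          _ = _ := by group
      inv_mem' := by
        rintro x ⟨a, ha, b, hb, rfl⟩
        refine ⟨a⁻¹, inv_mem ha, b⁻¹, inv_mem hb, ?_⟩
        rw [s.comm_a ha hb]; group }
  have h1 : L ⊔ L.map (MulAut.conj u).toMonoidHom ≤ P := by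
    refine sup_le ?_ ?_
    · intro y hy
      exact ⟨y, hy, 1, one_mem _, by group⟩
    · rintro _ ⟨y, hy, rfl⟩
      exact ⟨1, one_mem _, y, hy, by show u * y * u⁻¹ = _; group⟩
  rw [s.layer_eq] at hx
  exact h1 hx

/-- `z = z₁ z₁^u` -/
theorem exists_z₁ (s : Sit Q z L u) : ∃ z₁ ∈ L, z = z₁ * (u * z₁ * u⁻¹) := by
  obtain ⟨a, ha, b, hb, hz⟩ := s.exists_mul (z_mem_layer s.h s.hO s.hbot)
  refine ⟨a, ha, ?_⟩
  -- conjugate by `u`
  have h1 : u * z * u⁻¹ = z := by rw [s.h.comm_z u s.hu]; group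
  -- `u² = 1` or `z`; `u² b u⁻² ∈ L`
  have huuN : u * u ∈ Subgroup.normalizer (L : Set G) := by
    rcases s.h.sq u s.hu with h | h
    · rw [h]; exact one_mem _
    · rw [h]; exact s.z_normalizes s.hL
  have h2 : (u * u) * b * (u * u)⁻¹ ∈ L := (Subgroup.mem_normalizer_iff.1 huuN b).1 hb
  have h3 : a * (u * b * u⁻¹) = ((u * u) * b * (u * u)⁻¹) * (u * a * u⁻¹) := by
    have h4 := s.comm_a h2 ha
    calc a * (u * b * u⁻¹) = z := hz.symm
      _ = u * z * u⁻¹ := h1.symm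
      _ = u * (a * (u * b * u⁻¹)) * u⁻¹ := by rw [← hz]
      _ = (u * a * u⁻¹) * ((u * u) * b * (u * u)⁻¹) := by group
      _ = _ := h4.symm
  obtain ⟨h5, h6⟩ := s.eq_of_mul_eq ha h2 (fun l hl => s.comm_a hl hb) (fun l hl => s.comm_a hl ha) h3
  rw [← h6]; exact hz

section z₁

variable {z₁ : G}

theorem comm_iff (s : Sit Q z L u) (hz₁ : z₁ ∈ L) (hz : z = z₁ * (u * z₁ * u⁻¹)) {x : G} (hx : x ∈ L) :
    x * z = z * x ↔ x * z₁ = z₁ * x := by
  have hc : Commute x (u * z₁ * u⁻¹) := s.comm_a hx hz₁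
  constructor
  · intro h
    rw [hz] at h
    have h1 : x * z₁ * (u * z₁ * u⁻¹) = z₁ * x * (u * z₁ * u⁻¹) := by
      calc x * z₁ * (u * z₁ * u⁻¹) = x * (z₁ * (u * z₁ * u⁻¹)) := by group
        _ = z₁ * ((u * z₁ * u⁻¹) * x) := by rw [h]; group
        _ = z₁ * (x * (u * z₁ * u⁻¹)) := by rw [hc.eq]
        _ = _ := by group
    exact mul_right_cancel h1
  · intro h
    rw [hz]
    calc x * (z₁ * (u * z₁ * u⁻¹)) = (x * z₁) * (u * z₁ * u⁻¹) := by group
      _ = z₁ * (x * (u * z₁ * u⁻¹)) := by rw [h]; group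
      _ = z₁ * ((u * z₁ * u⁻¹) * x) := by rw [hc.eq]
      _ = _ := by group

theorem z₁_sq (s : Sit Q z L u) (hz₁ : z₁ ∈ L) (hz : z = z₁ * (u * z₁ * u⁻¹)) : z₁ * z₁ = 1 := by
  have hc : Commute z₁ (u * z₁ * u⁻¹) := s.comm_a hz₁ hz₁
  have h1 : z * z = 1 := s.h.z_sq
  rw [hz] at h1
  have h2 : z₁ * z₁ * (u * (z₁ * z₁) * u⁻¹) = 1 * (u * 1 * u⁻¹) := by
    calc z₁ * z₁ * (u * (z₁ * z₁) * u⁻¹) = z₁ * (z₁ * (u * z₁ * u⁻¹)) * (u * z₁ * u⁻¹) := by group
      _ = z₁ * ((u * z₁ * u⁻¹) * z₁) * (u * z₁ * u⁻¹) := by rw [hc.eq]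
      _ = z₁ * (u * z₁ * u⁻¹) * (z₁ * (u * z₁ * u⁻¹)) := by group
      _ = 1 := h1
      _ = _ := by group
  exact (s.eq_of_mul_eq (mul_mem hz₁ hz₁) (one_mem L)
    (fun l hl => s.comm_a hl (mul_mem hz₁ hz₁)) (fun l hl => s.comm_a hl (one_mem L)) h2).1

theorem z₁_ne (s : Sit Q z L u) (hz : z = z₁ * (u * z₁ * u⁻¹)) : z₁ ≠ 1 := by
  rintro rfl
  apply s.h.z_ne
  rw [hz]; group

/-- the first coordinate of `{1, z}` is in `{1, z₁}` -/
theorem coord (s : Sit Q z L u) (hz₁ : z₁ ∈ L) (hz : z = z₁ * (u * z₁ * u⁻¹)) {x y : G} (hx : x ∈ L)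
    (hy : y ∈ L) (h : x * (u * y * u⁻¹) = 1 ∨ x * (u * y * u⁻¹) = z) : x = 1 ∨ x = z₁ := by
  rcases h with h | h
  · left
    have h2 : x * (u * y * u⁻¹) = 1 * (u * 1 * u⁻¹) := by rw [h]; group
    exact (s.eq_of_mul_eq hx (one_mem L) (fun l hl => s.comm_a hl hy)
      (fun l hl => s.comm_a hl (one_mem L)) h2).1
  · right
    rw [hz] at h
    exact (s.eq_of_mul_eq hx hz₁ (fun l hl => s.comm_a hl hy) (fun l hl => s.comm_a hl hz₁) h).1

theorem sq_mem (s : Sit Q z L u) (hz₁ : z₁ ∈ L) (hz : z = z₁ * (u * z₁ * u⁻¹)) {x : G} (hx : x ∈ R L z) :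
    x * x = 1 ∨ x * x = z₁ := by
  obtain ⟨hxL, hxz⟩ := mem_R.1 hx
  have hxi : x⁻¹ ∈ L := inv_mem hxL
  have hxz' : x⁻¹ * z = z * x⁻¹ := by
    rw [inv_mul_eq_iff_eq_mul, ← mul_assoc, hxz, mul_inv_cancel_right]
  have h1 := s.h.sq _ (s.y_mem hxz')
  have hc : x * (u * x⁻¹ * u⁻¹) = (u * x⁻¹ * u⁻¹) * x := s.comm_a hxL hxi
  have h2 : (x⁻¹⁻¹ * (u * x⁻¹ * u⁻¹)) * (x⁻¹⁻¹ * (u * x⁻¹ * u⁻¹)) = (x * x) * (u * (x⁻¹ * x⁻¹) * u⁻¹) := by
    rw [inv_inv]
    calc (x * (u * x⁻¹ * u⁻¹)) * (x * (u * x⁻¹ * u⁻¹))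
        = x * ((u * x⁻¹ * u⁻¹) * x) * (u * x⁻¹ * u⁻¹) := by group
      _ = x * (x * (u * x⁻¹ * u⁻¹)) * (u * x⁻¹ * u⁻¹) := by rw [hc]
      _ = _ := by group
  rw [h2] at h1
  exact s.coord hz₁ hz (mul_mem hxL hxL) (mul_mem hxi hxi) h1

theorem comm_mem (s : Sit Q z L u) (hz₁ : z₁ ∈ L) (hz : z = z₁ * (u * z₁ * u⁻¹)) {x y : G} (hx : x ∈ R L z)
    (hy : y ∈ R L z) : x * y * x⁻¹ * y⁻¹ = 1 ∨ x * y * x⁻¹ * y⁻¹ = z₁ := by
  obtain ⟨hxL, hxz⟩ := mem_R.1 hx
  obtain ⟨hyL, hyz⟩ := mem_R.1 hy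
  have hxi : x⁻¹ ∈ L := inv_mem hxL
  have hyi : y⁻¹ ∈ L := inv_mem hyL
  have hxz' : x⁻¹ * z = z * x⁻¹ := by
    rw [inv_mul_eq_iff_eq_mul, ← mul_assoc, hxz, mul_inv_cancel_right]
  have hyz' : y⁻¹ * z = z * y⁻¹ := by
    rw [inv_mul_eq_iff_eq_mul, ← mul_assoc, hyz, mul_inv_cancel_right]
  have hX := s.y_mem hxz'
  have hY := s.y_mem hyz'
  rw [inv_inv] at hX hY
  set a := u * x⁻¹ * u⁻¹ with ha
  set b := u * y⁻¹ * u⁻¹ with hb
  -- `[x a, y b] = [x, y] [a, b]`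
  have c1 : Commute x a := s.comm_a hxL hxi
  have c2 : Commute x b := s.comm_a hxL hyi
  have c3 : Commute y a := s.comm_a hyL hxi
  have c4 : Commute y b := s.comm_a hyL hyi
  have h1 : (x * a) * (y * b) * (x * a)⁻¹ * (y * b)⁻¹ = 1 ∨
      (x * a) * (y * b) * (x * a)⁻¹ * (y * b)⁻¹ = z := by
    rcases s.h.comm _ hX _ hY with h | h
    · left; rw [h]; group
    · right; rw [h]
      calc (y * b) * (x * a) * z * (x * a)⁻¹ * (y * b)⁻¹ =
          (y * b) * ((x * a) * z) * (x * a)⁻¹ * (y * b)⁻¹ := by group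
        _ = (y * b) * (z * (x * a)) * (x * a)⁻¹ * (y * b)⁻¹ := by rw [s.h.comm_z _ hX]
        _ = ((y * b) * z) * (y * b)⁻¹ := by group
        _ = (z * (y * b)) * (y * b)⁻¹ := by rw [s.h.comm_z _ hY]
        _ = z := by group
  have h2 : (x * a) * (y * b) * (x * a)⁻¹ * (y * b)⁻¹ =
      (x * y * x⁻¹ * y⁻¹) * (a * b * a⁻¹ * b⁻¹) := by
    have e1 : a * y = y * a := c3.eq.symm
    have e2 : (y * b)⁻¹ = b⁻¹ * y⁻¹ := mul_inv_rev _ _
    have e3 : (x * a)⁻¹ = a⁻¹ * x⁻¹ := mul_inv_rev _ _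
    have d1 : Commute (a * b * a⁻¹) x⁻¹ := ((c1.mul_right c2).mul_right c1.inv_right).symm.inv_right
    have d2 : Commute (a * b * a⁻¹ * b⁻¹) y⁻¹ :=
      (((c3.mul_right c4).mul_right c3.inv_right).mul_right c4.inv_right).symm.inv_right
    rw [e2, e3]
    calc x * a * (y * b) * (a⁻¹ * x⁻¹) * (b⁻¹ * y⁻¹)
        = x * (a * y) * b * a⁻¹ * x⁻¹ * b⁻¹ * y⁻¹ := by group
      _ = x * y * ((a * b * a⁻¹) * x⁻¹) * b⁻¹ * y⁻¹ := by rw [e1]; group
      _ = x * y * x⁻¹ * ((a * b * a⁻¹ * b⁻¹) * y⁻¹) := by rw [d1.eq]; group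
      _ = _ := by rw [d2.eq]; group
  rw [h2] at h1
  have h3 : a * b * a⁻¹ * b⁻¹ = u * (x⁻¹ * y⁻¹ * x * y) * u⁻¹ := by rw [ha, hb]; group
  rw [h3] at h1
  exact s.coord hz₁ hz (mul_mem (mul_mem (mul_mem hxL hyL) hxi) hyi)
    (mul_mem (mul_mem (mul_mem hxi hyi) hxL) hyL) h1

/-- the Sylow 2-subgroup `C_L(z₁)` of `L` -/
theorem exists_sylow (s : Sit Q z L u) (hz₁ : z₁ ∈ L) (hz : z = z₁ * (u * z₁ * u⁻¹)) :
    ∃ S : Sylow 2 ↥L, (S : Subgroup ↥L) = (Subgroup.centralizer ({z₁} : Set G)).subgroupOf L ∧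
      (frattini ↥(S : Subgroup ↥L)).map ((L.subtype).comp (S : Subgroup ↥L).subtype) ≤
        Subgroup.zpowers z₁ := by
  have : Fact (Nat.Prime 2) := ⟨Nat.prime_two⟩
  set R' : Subgroup L := (Subgroup.centralizer ({z₁} : Set G)).subgroupOf L with hR'
  have hmem : ∀ x : L, x ∈ R' ↔ (x : G) ∈ R L z := by
    intro x
    rw [hR', Subgroup.mem_subgroupOf, Subgroup.mem_centralizer_singleton_iff, mem_R, s.comm_iff hz₁ hz x.2]
    exact ⟨fun h => ⟨x.2, h⟩, fun h => h.2⟩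
  have hR2 : IsPGroup 2 R' := by
    intro x
    obtain ⟨n, hn⟩ := s.R_two ⟨x, (hmem x).1 x.2⟩
    have hn' := congrArg (fun t : R L z => (t : G)) hn
    refine ⟨n, Subtype.ext (Subtype.ext ?_)⟩
    exact hn'
  obtain ⟨S, hS⟩ := hR2.exists_le_sylow
  have hcard : Nat.card S ≤ Nat.card R' := by
    have h1 := s.card_le (S := (S : Subgroup L).map L.subtype) (S.2.map L.subtype)
      (Subgroup.map_subtype_le _)
    rw [Subgroup.card_map_of_injective L.subtype_injective] at h1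
    refine h1.trans ?_
    have h2 : R L z = R'.map L.subtype := by
      ext x
      constructor
      · intro hx
        exact ⟨⟨x, (mem_R.1 hx).1⟩, (hmem _).2 hx, rfl⟩
      · rintro ⟨y, hy, rfl⟩
        exact (hmem y).1 hy
    rw [h2, Subgroup.card_map_of_injective L.subtype_injective]
  have hSR : (S : Subgroup L) = R' := (Subgroup.eq_of_le_of_card_ge hS hcard).symm
  refine ⟨S, hSR, ?_⟩
  -- Frattini
  have hzz := s.z₁_sq hz₁ hz
  have hmemS : ∀ x : (S : Subgroup L), ((x : L) : G) ∈ R L z := fun x => (hmem x).1 (hSR ▸ x.2)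
  have hz₁R : (⟨z₁, hz₁⟩ : L) ∈ (S : Subgroup L) := by
    rw [hSR, hR', Subgroup.mem_subgroupOf, Subgroup.mem_centralizer_singleton_iff]
  set w : (S : Subgroup L) := ⟨⟨z₁, hz₁⟩, hz₁R⟩ with hw
  have hww : w * w = 1 := Subtype.ext (Subtype.ext hzz)
  have hwc : ∀ x : (S : Subgroup L), x * w = w * x := by
    intro x
    apply Subtype.ext
    apply Subtype.ext
    exact (s.comm_iff hz₁ hz (x : L).2).1 (mem_R.1 (hmemS x)).2
  have hWn : (Subgroup.zpowers w).Normal := by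
    refine ⟨fun n hn g => ?_⟩
    rcases (mem_zpowers_iff_of_sq hww).1 hn with h | h
    · rw [h, mul_one, mul_inv_cancel]; exact one_mem _
    · rw [h, hwc g, mul_inv_cancel_right]; exact Subgroup.mem_zpowers w
  have hfr : frattini ↥(S : Subgroup ↥L) ≤ Subgroup.zpowers w := by
    refine Cfsg.Agent.Lib.FrattiniPGroup.frattini_le (p := 2) (Subgroup.zpowers w) ?_ ?_
    · intro x y
      rw [mem_zpowers_iff_of_sq hww]
      rcases s.comm_mem hz₁ hz (hmemS x) (hmemS y) with h | h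
      · left; exact Subtype.ext (Subtype.ext h)
      · right; exact Subtype.ext (Subtype.ext h)
    · intro x
      rw [mem_zpowers_iff_of_sq hww, pow_two]
      rcases s.sq_mem hz₁ hz (hmemS x) with h | h
      · left; exact Subtype.ext (Subtype.ext h)
      · right; exact Subtype.ext (Subtype.ext h)
  rintro _ ⟨x, hx, rfl⟩
  rw [mem_zpowers_iff_of_sq hzz]
  rcases (mem_zpowers_iff_of_sq hww).1 (hfr hx) with h | h
  · left; rw [h]; rfl
  · right; rw [h]; rfl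

/-- `Q ≠ O₂(C_G(z))` -/
theorem ne_core (s : Sit Q z L u) : Q ≠ (Cfsg.pCore 2 ↥(Subgroup.centralizer ({z} : Set G))).map
    (Subgroup.centralizer ({z} : Set G)).subtype := by
  intro hcore
  obtain ⟨z₁, hz₁, hz⟩ := s.exists_z₁
  -- `C_E(z)` is a normal 2-subgroup of `C_G(z)`
  set C := Subgroup.centralizer ({z} : Set G) with hC
  set N : Subgroup C := (layer G).subgroupOf C with hN
  have hNn : N.Normal := by
    refine ⟨fun n hn g => ?_⟩
    rw [hN, Subgroup.mem_subgroupOf] at hn ⊢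
    exact conj_mem_layer hn
  have hN2 : IsPGroup 2 N := by
    intro x
    refine ⟨2, Subtype.ext (Subtype.ext ?_)⟩
    show ((x : C) : G) ^ 4 = 1
    have h1 : ((x : C) : G) ∈ layer G := x.2
    have h2 : ((x : C) : G) * z = z * ((x : C) : G) := Subgroup.mem_centralizer_singleton_iff.1 (x : C).2
    obtain ⟨a, ha, b, hb, hab⟩ := s.exists_mul h1
    rw [hab] at h2 ⊢
    have c : Commute a (u * b * u⁻¹) := s.comm_a ha hb
    have e1 : a * (u * b * u⁻¹) * (z₁ * (u * z₁ * u⁻¹)) = (a * z₁) * (u * (b * z₁) * u⁻¹) := by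
      calc a * (u * b * u⁻¹) * (z₁ * (u * z₁ * u⁻¹)) = a * ((u * b * u⁻¹) * z₁) * (u * z₁ * u⁻¹) := by group
        _ = a * (z₁ * (u * b * u⁻¹)) * (u * z₁ * u⁻¹) := by rw [s.comm_a hz₁ hb]
        _ = _ := by group
    have e2 : (z₁ * (u * z₁ * u⁻¹)) * (a * (u * b * u⁻¹)) = (z₁ * a) * (u * (z₁ * b) * u⁻¹) := by
      calc (z₁ * (u * z₁ * u⁻¹)) * (a * (u * b * u⁻¹)) = z₁ * ((u * z₁ * u⁻¹) * a) * (u * b * u⁻¹) := by
            group
        _ = z₁ * (a * (u * z₁ * u⁻¹)) * (u * b * u⁻¹) := by rw [s.comm_a ha hz₁]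
        _ = _ := by group
    rw [hz, e1, e2] at h2
    obtain ⟨h3, h4⟩ := s.eq_of_mul_eq (mul_mem ha hz₁) (mul_mem hz₁ ha)
      (fun l hl => s.comm_a hl (mul_mem hb hz₁)) (fun l hl => s.comm_a hl (mul_mem hz₁ hb)) h2
    have h5 : b * z₁ = z₁ * b := mul_left_cancel (mul_right_cancel h4)
    have h6 := s.pow_four ha ((s.comm_iff hz₁ hz ha).2 h3)
    have h7 := s.pow_four hb ((s.comm_iff hz₁ hz hb).2 h5)
    rw [c.mul_pow, h6, one_mul]
    have h8 : (u * b * u⁻¹) ^ 4 = u * b ^ 4 * u⁻¹ := conj_pow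
    rw [h8, h7]; group
  have hNle : N ≤ pCore 2 C := Cfsg.Agent.Lib.Cores.le_pCore hNn hN2
  have hRQ : ∀ x ∈ R L z, x ∈ Q := by
    intro x hx
    obtain ⟨h1, h2⟩ := mem_R.1 hx
    have hxC : x ∈ C := Subgroup.mem_centralizer_singleton_iff.2 h2
    rw [hcore]
    refine ⟨⟨x, hxC⟩, hNle ?_, rfl⟩
    rw [hN, Subgroup.mem_subgroupOf]
    exact component_le_layer s.hL h1
  -- every element of `R` is `1` or `z₁`
  have h4 := s.four_le
  have hR : ∀ x ∈ R L z, x = 1 ∨ x = z₁ := by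
    intro x hx
    obtain ⟨h1, h2⟩ := mem_R.1 hx
    have h3 : x⁻¹ ∈ L := inv_mem h1
    have h5 : x * (u * x⁻¹ * u⁻¹) = 1 ∨ x * (u * x⁻¹ * u⁻¹) = z := by
      rcases s.h.comm x (hRQ x hx) u s.hu with h | h
      · left
        calc x * (u * x⁻¹ * u⁻¹) = (x * u) * x⁻¹ * u⁻¹ := by group
          _ = 1 := by rw [h]; group
      · right
        calc x * (u * x⁻¹ * u⁻¹) = (x * u) * x⁻¹ * u⁻¹ := by group
          _ = u * (x * z) * x⁻¹ * u⁻¹ := by rw [h]; group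
          _ = u * (z * x) * x⁻¹ * u⁻¹ := by rw [h2]
          _ = (u * z) * u⁻¹ := by group
          _ = z := by rw [s.h.comm_z u s.hu]; group
    exact s.coord hz₁ hz h1 h3 h5
  exact s.false_of_two (fun x => x * (u * x * u⁻¹)) (fun x hx => by
    rcases hR x hx with h | h
    · left; rw [h]; group
    · right; rw [h]; exact hz.symm) (fun x hx y hy hxy => by
      rcases hR x hx with h | h <;> rcases hR y hy with h' | h'
      · rw [h, h']
      · exfalso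
        rw [h, h', ← hz] at hxy
        apply s.h.z_ne
        rw [← hxy]; group
      · exfalso
        rw [h, h', ← hz] at hxy
        apply s.h.z_ne
        rw [hxy]; group
      · rw [h, h'])

end z₁

end Sit

end Cfsg.Agent.H822.Structure
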