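import Cfsg.Agent.H822.Holo

/-!
# Transfer of `Large Q z` along an injective homomorphism whose range contains the centraliser (helper822)
-/

set_option autoImplicit false

namespace Cfsg.Agent.H822.Transfer

open Cfsg.Agent.Co2Type.Quad Cfsg.Agent.H822.Bridge

variable {X Y : Type*} [Group X] [Group Y] {ι : Y →* X} {z : Y}

theorem comm_iff (hι : Function.Injective ι) {g h : Y} : ι g * ι h = ι h * ι g ↔ g * h = h * g := by
  rw [← map_mul, ← map_mul]
  exact ⟨fun h => hι h, fun h => by rw [h]⟩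

theorem large_map (hι : Function.Injective ι) (hC : ∀ g : X, g * ι z = ι z * g → g ∈ ι.range)
    {Q : Subgroup Y} (h : Large Q z) : Large (Q.map ι) (ι z) := by
  refine ⟨⟨z, h.z_mem, rfl⟩, ?_, ?_, ?_, ?_, ?_, ?_, ?_, ?_⟩
  · intro e; exact h.z_ne (hι (e.trans (map_one ι).symm))
  · rw [← map_mul, h.z_sq, map_one]
  · rintro _ ⟨x, hx, rfl⟩
    exact (comm_iff hι).2 (h.comm_z x hx)
  · rintro g hg _ ⟨x, hx, rfl⟩
    obtain ⟨g, rfl⟩ := hC g hg
    exact ⟨g * x * g⁻¹, h.conj_mem g ((comm_iff hι).1 hg) x hx, by simp⟩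
  · rintro _ ⟨x, hx, rfl⟩
    rcases h.sq x hx with e | e
    · left; rw [← map_mul, e, map_one]
    · right; rw [← map_mul, e]
  · rintro _ ⟨x, hx, rfl⟩ _ ⟨y, hy, rfl⟩
    rcases h.comm x hx y hy with e | e
    · left; rw [← map_mul, e, map_mul]
    · right; rw [← map_mul, e, map_mul, map_mul]
  · rintro _ ⟨x, hx, rfl⟩ hc
    rcases h.cent x hx (fun y hy => (comm_iff hι).1 (hc _ ⟨y, hy, rfl⟩)) with e | e
    · left; rw [e, map_one]
    · right; rw [e]
  · intro g hg hc
    obtain ⟨g, rfl⟩ := hC g hg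
    exact ⟨g, h.self g ((comm_iff hι).1 hg) (fun y hy => (comm_iff hι).1 (hc _ ⟨y, hy, rfl⟩)), rfl⟩

theorem map_cent (hι : Function.Injective ι) (hC : ∀ g : X, g * ι z = ι z * g → g ∈ ι.range) :
    (Subgroup.centralizer ({z} : Set Y)).map ι = Subgroup.centralizer ({ι z} : Set X) := by
  ext g
  rw [Subgroup.mem_centralizer_singleton_iff]
  constructor
  · rintro ⟨g, hg, rfl⟩
    exact (comm_iff hι).2 (Subgroup.mem_centralizer_singleton_iff.1 hg)
  · intro hg
    obtain ⟨g, rfl⟩ := hC g hg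
    exact ⟨g, Subgroup.mem_centralizer_singleton_iff.2 ((comm_iff hι).1 hg), rfl⟩

/-- the isomorphism of the centralisers -/
noncomputable def centEquiv (hι : Function.Injective ι) (hC : ∀ g : X, g * ι z = ι z * g → g ∈ ι.range) :
    ↥(Subgroup.centralizer ({z} : Set Y)) ≃* ↥(Subgroup.centralizer ({ι z} : Set X)) :=
  MulEquiv.ofBijective
    (MonoidHom.mk' (fun g : ↥(Subgroup.centralizer ({z} : Set Y)) =>
      (⟨ι g, Subgroup.mem_centralizer_singleton_iff.2 ((comm_iff hι).2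
        (Subgroup.mem_centralizer_singleton_iff.1 g.2))⟩ : ↥(Subgroup.centralizer ({ι z} : Set X))))
      (fun a b => Subtype.ext (map_mul ι (a : Y) (b : Y))))
    (by
      constructor
      · intro a b hab
        exact Subtype.ext (hι (congrArg Subtype.val hab))
      · rintro ⟨g, hg⟩
        obtain ⟨g, rfl⟩ := hC g (Subgroup.mem_centralizer_singleton_iff.1 hg)
        exact ⟨⟨g, Subgroup.mem_centralizer_singleton_iff.2
          ((comm_iff hι).1 (Subgroup.mem_centralizer_singleton_iff.1 hg))⟩, rfl⟩)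

theorem core_map (hι : Function.Injective ι) (hC : ∀ g : X, g * ι z = ι z * g → g ∈ ι.range) :
    (Cfsg.pCore 2 ↥(Subgroup.centralizer ({ι z} : Set X))).map
      (Subgroup.centralizer ({ι z} : Set X)).subtype =
    ((Cfsg.pCore 2 ↥(Subgroup.centralizer ({z} : Set Y))).map
      (Subgroup.centralizer ({z} : Set Y)).subtype).map ι := by
  have h1 := Cfsg.Agent.Lib.Cores.map_equiv_pCore (centEquiv hι hC) 2
  ext g
  constructor
  · rintro ⟨s, hs, rfl⟩
    rw [← h1] at hs
    obtain ⟨c, hc, rfl⟩ := hs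
    exact ⟨c, ⟨c, hc, rfl⟩, rfl⟩
  · rintro ⟨_, ⟨c, hc, rfl⟩, rfl⟩
    refine ⟨centEquiv hι hC c, ?_, rfl⟩
    rw [← h1]
    exact ⟨c, hc, rfl⟩

theorem card_map (hι : Function.Injective ι) (Q : Subgroup Y) : Nat.card (Q.map ι) = Nat.card Q :=
  (Nat.card_congr (Q.equivMapOfInjective ι hι).toEquiv).symm

theorem elAb_map (p : ℕ) {E : Subgroup Y} (hE : Cfsg.IsElementaryAbelian p E) :
    Cfsg.IsElementaryAbelian p (E.map ι) := by
  refine ⟨?_, ?_⟩
  · have := hE.1
    infer_instance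
  · rintro _ ⟨x, hx, rfl⟩
    rw [← map_pow, hE.2 x hx, map_one]

end Cfsg.Agent.H822.Transfer
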